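import Cfsg.Agent.Lib.H59.BA2s
import Cfsg.Agent.S0205

/-!
# S3219, piece BA2: `O(G) = 1`
-/

set_option autoImplicit false
set_option linter.unusedVariables false
set_option linter.unusedSectionVars false
set_option linter.style.haveILetI false

namespace H59.BA2

open Subgroup

universe u v

theorem core_bot {G : Type u} {Ω : Type v} [Group G] [Finite G] [MulAction G Ω] [Finite Ω] (h : H39.DA.TT G Ω)
    {a : Ω} {s t : G} (hs : s * s = 1) (ht : t * t = 1) (ht1 : t ≠ 1)
    (hst : s * t = t * s) (hsa : s • a = a) (hta : t • a = a)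
    (h1 : ∀ x : Ω, s • x = x → t • x = x)
    (h3 : ∀ x : Ω, (s * t) • x = x → t • x = x) : ∀ N : Subgroup G, N.Normal → Odd (Nat.card N) → N = ⊥ := by
  classical
  intro N hN hodd
  by_contra hne
  have hsol : Group.IsSolvable N := Cfsg.Agent.S0205.result hodd
  -- an abelian normal subgroup
  obtain ⟨A, hAchar, hA1, hAc⟩ : ∃ A : Subgroup N, A.Characteristic ∧ A ≠ ⊥ ∧ ∀ x ∈ A, ∀ y ∈ A, x * y = y * x := by
    have hex : ∃ n, derivedSeries N n = ⊥ := hsol.solvable
    have hnt : derivedSeries N 0 ≠ ⊥ := by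
      intro h0
      apply hne
      rw [derivedSeries_zero] at h0
      rw [Subgroup.eq_bot_iff_forall]
      intro x hx
      have h2 : (⟨x, hx⟩ : N) ∈ (⊤ : Subgroup N) := trivial
      rw [h0, mem_bot] at h2
      exact congrArg Subtype.val h2
    have h1 : Nat.find hex ≠ 0 := by
      intro h0
      have := Nat.find_spec hex
      rw [h0] at this
      exact hnt this
    obtain ⟨m, hm⟩ := Nat.exists_eq_succ_of_ne_zero h1
    refine ⟨derivedSeries N m, derivedSeries_characteristic N m, Nat.find_min hex (by omega), ?_⟩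
    have h2 := Nat.find_spec hex
    rw [hm, Nat.succ_eq_add_one, derivedSeries_succ, Subgroup.commutator_eq_bot_iff_le_centralizer] at h2
    intro x hx y hy
    exact (mem_centralizer_iff.1 (h2 hx) y hy).symm
  set E : Subgroup G := A.map N.subtype with hE
  have hEn : E.Normal := inferInstance
  have hE1 : E ≠ ⊥ := by
    intro h2
    exact hA1 ((Subgroup.map_eq_bot_iff_of_injective _ N.subtype_injective).1 h2)
  have hEc : ∀ x ∈ E, ∀ y ∈ E, x * y = y * x := by
    rintro _ ⟨x, hx, rfl⟩ _ ⟨y, hy, rfl⟩
    exact congrArg Subtype.val (hAc x hx y hy)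
  have hEo : ∀ x ∈ E, x * x = 1 → x = 1 := by
    rintro _ ⟨x, hx, rfl⟩ h2
    have h4 : (x : G) ^ 2 = 1 := by rw [pow_two]; exact h2
    have h5 : orderOf (x : G) ∣ 2 := orderOf_dvd_of_pow_eq_one h4
    have h6 : orderOf (x : G) ∣ Nat.card N := by
      rw [Subgroup.orderOf_coe]; exact orderOf_dvd_natCard x
    have h7 : Nat.Coprime 2 (Nat.card N) := (Nat.coprime_two_left).2 hodd
    exact orderOf_eq_one_iff.1 (Nat.eq_one_of_dvd_coprimes h7 h5 h6)
  have htr := normal_trans h E hEn hE1
  -- regularity
  have hreg : ∀ e ∈ E, e • a = a → e = 1 := by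
    intro e he hea
    apply h.faith
    intro x
    obtain ⟨r, hr, rfl⟩ := htr a x
    rw [smul_smul, hEc e he r hr, mul_smul, hea]
  -- fixed points of elements fixing `a`
  have hfx : ∀ w : G, w • a = a → ∀ e ∈ E, (w • (e • a) = e • a ↔ w * e * w⁻¹ = e) := by
    intro w hwa e he
    have hwi : w⁻¹ • a = a := by rw [inv_smul_eq_iff]; exact hwa.symm
    have h4 : w • (e • a) = (w * e * w⁻¹) • a := by
      rw [mul_smul (w * e), hwi, mul_smul]
    rw [h4]
    constructor
    · intro h5
      have h6 : (e⁻¹ * (w * e * w⁻¹)) • a = a := by rw [mul_smul, h5, inv_smul_smul]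
      have h7 := hreg _ (E.mul_mem (E.inv_mem he) (hEn.conj_mem e he w)) h6
      exact (inv_mul_eq_one.1 h7).symm
    · intro h5
      rw [h5]
  have hsi : s⁻¹ = s := inv_eq_of_mul_eq_one_right hs
  have hti : t⁻¹ = t := inv_eq_of_mul_eq_one_right ht
  have hcomm : ∀ e ∈ E, t * e * t⁻¹ = e := by
    intro e he
    have key : ∀ w : G, w * w = 1 → w • a = a → (∀ x : Ω, w • x = x → t • x = x) →
        t * (e * (w * e * w⁻¹)) * t⁻¹ = e * (w * e * w⁻¹) := by
      intro w hw hwa hwt
      have hwi : w⁻¹ = w := inv_eq_of_mul_eq_one_right hw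
      have hwe : w * e * w⁻¹ ∈ E := hEn.conj_mem e he w
      have hx : e * (w * e * w⁻¹) ∈ E := E.mul_mem he hwe
      have h4 : w * (e * (w * e * w⁻¹)) * w⁻¹ = e * (w * e * w⁻¹) := by
        have h5 : w * (e * (w * e * w⁻¹)) * w⁻¹ = (w * e * w⁻¹) * (w * w * e * (w * w)⁻¹) := by group
        rw [h5, hw, inv_one, mul_one, one_mul, hEc _ hwe _ he]
      exact (hfx t hta _ hx).1 (hwt _ ((hfx w hwa _ hx).2 h4))
    have k1 := key s hs hsa h1
    have k2 := key (s * t) (by
      calc s * t * (s * t) = s * (t * s) * t := by group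
        _ = s * (s * t) * t := by rw [hst]
        _ = (s * s) * (t * t) := by group
        _ = 1 := by rw [hs, ht, one_mul]) (by rw [mul_smul, hta, hsa]) h3
    -- e^t e^{ts} = e e^s ; e^t e^s = e e^{st}
    set es := s * e * s⁻¹ with hes
    set et := t * e * t⁻¹ with het
    set est := (s * t) * e * (s * t)⁻¹ with hest
    have m1 : es ∈ E := hEn.conj_mem e he s
    have m2 : et ∈ E := hEn.conj_mem e he t
    have m3 : est ∈ E := hEn.conj_mem e he (s * t)
    have c1 : t * (e * es) * t⁻¹ = et * est := by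
      have : est = (t * s) * e * (t * s)⁻¹ := by rw [hest, hst]
      rw [this, het, hes]; group
    have c2 : t * (e * est) * t⁻¹ = et * es := by
      have h6 : t * est * t⁻¹ = es := by
        calc t * est * t⁻¹ = (t * (s * t)) * e * (t * (s * t))⁻¹ := by rw [hest]; group
          _ = s * e * s⁻¹ := by
            have : t * (s * t) = s := by rw [hst, ← mul_assoc, ht, one_mul]
            rw [this]
      calc t * (e * est) * t⁻¹ = (t * e * t⁻¹) * (t * est * t⁻¹) := by group
        _ = et * es := by rw [h6]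
    rw [c1] at k1
    rw [c2] at k2
    -- multiply
    have h7 : (et * est) * (et * es) = (e * es) * (e * est) := by rw [k1, k2]
    have h8 : (et * et) * (est * es) = (e * e) * (est * es) := by
      calc (et * et) * (est * es) = et * (et * est) * es := by group
        _ = et * (est * et) * es := by rw [hEc et m2 est m3]
        _ = (et * est) * (et * es) := by group
        _ = (e * es) * (e * est) := h7
        _ = e * (es * e) * est := by group
        _ = e * (e * es) * est := by rw [hEc es m1 e he]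
        _ = (e * e) * (es * est) := by group
        _ = (e * e) * (est * es) := by rw [hEc es m1 est m3]
    have h9 : et * et = e * e := mul_right_cancel h8
    have h10 : (et * e⁻¹) * (et * e⁻¹) = 1 := by
      have h11 : e⁻¹ * et = et * e⁻¹ := hEc _ (E.inv_mem he) _ m2
      calc (et * e⁻¹) * (et * e⁻¹) = et * (e⁻¹ * et) * e⁻¹ := by group
        _ = et * (et * e⁻¹) * e⁻¹ := by rw [h11]
        _ = (et * et) * (e⁻¹ * e⁻¹) := by group
        _ = 1 := by rw [h9]; group
    have h12 := hEo _ (E.mul_mem m2 (E.inv_mem he)) h10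
    exact mul_inv_eq_one.1 h12
  apply ht1
  apply h.faith
  intro x
  obtain ⟨e, he, rfl⟩ := htr a x
  exact (hfx t hta e he).2 (hcomm e he)

end H59.BA2
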