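import Mathlib

set_option autoImplicit false

/-!
Groups in which the centralizers of involutions have exponent two.
-/

namespace H59.ElemCent

/-- centralizers of involutions have exponent two -/
def E (H : Type*) [Group H] : Prop := ∀ u v : H, orderOf u = 2 → u * v = v * u → v * v = 1

theorem E.subgroup {G : Type*} [Group G] (h : E G) (K : Subgroup G) : E K := by
  intro u v hu huv
  have h1 := h u v (by rw [Subgroup.orderOf_coe]; exact hu) (congrArg Subtype.val huv)
  exact Subtype.ext h1

variable {H : Type*} [Group H]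

theorem E.comm (hE : E H) {u a b : H} (hu : orderOf u = 2) (ha : u * a = a * u)
    (hb : u * b = b * u) : a * b = b * a := by
  have h1 := hE u a hu ha
  have h2 := hE u b hu hb
  have h3 := hE u (a * b) hu (by rw [← mul_assoc, ha, mul_assoc, hb, mul_assoc])
  have h4 : a⁻¹ = a := inv_eq_of_mul_eq_one_left h1
  have h5 : b⁻¹ = b := inv_eq_of_mul_eq_one_left h2
  have h6 : (a * b)⁻¹ = a * b := inv_eq_of_mul_eq_one_left h3
  rw [mul_inv_rev, h4, h5] at h6
  exact h6.symm

theorem orderOf_two_of {v : H} (h : v * v = 1) (h1 : v ≠ 1) : orderOf v = 2 :=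
  orderOf_eq_prime (by rw [pow_two]; exact h) h1

theorem card_sylow [Finite H] (S : Sylow 2 H) {m k : ℕ} (hcard : Nat.card H = 2 ^ m * k)
    (hk : Odd k) : Nat.card S = 2 ^ m := by
  rw [S.card_eq_multiplicity, hcard]
  congr 1
  have hk0 : k ≠ 0 := by
    rintro rfl
    simp at hk
  rw [Nat.factorization_mul (by positivity) hk0, Nat.Prime.factorization_pow Nat.prime_two,
    Finsupp.add_apply, Finsupp.single_eq_same,
    Nat.factorization_eq_zero_of_not_dvd (fun h => by
      have := Nat.not_even_iff_odd.2 hk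
      exact this (even_iff_two_dvd.2 h)), add_zero]

theorem E.card_cent [Finite H] (hE : E H) {u : H} (hu : orderOf u = 2) {m k : ℕ}
    (hcard : Nat.card H = 2 ^ m * k) (hk : Odd k) :
    Nat.card (Subgroup.centralizer ({u} : Set H)) = 2 ^ m := by
  have hP : IsPGroup 2 (Subgroup.zpowers u) :=
    IsPGroup.of_card (n := 1) (by rw [Nat.card_zpowers, hu, pow_one])
  obtain ⟨S, hS⟩ := hP.exists_le_sylow
  have huS : u ∈ (S : Subgroup H) := hS (Subgroup.mem_zpowers u)
  have : Nontrivial S := by
    refine ⟨⟨u, huS⟩, 1, fun h => ?_⟩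
    have h1 : u = 1 := congrArg Subtype.val h
    rw [h1, orderOf_one] at hu
    norm_num at hu
  have hcen : Nontrivial (Subgroup.center S) := S.2.center_nontrivial
  have hcp : IsPGroup 2 (Subgroup.center S) := S.2.to_subgroup _
  have h2 : 2 ∣ Nat.card (Subgroup.center S) := by
    obtain ⟨j, hj⟩ := IsPGroup.iff_card.1 hcp
    rcases Nat.eq_zero_or_pos j with rfl | hj0
    · rw [pow_zero] at hj
      have := Finite.one_lt_card_iff_nontrivial.2 hcen
      omega
    · rw [hj]
      exact dvd_pow_self 2 hj0.ne'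
  obtain ⟨z, hz⟩ := exists_prime_orderOf_dvd_card' 2 h2
  have hz2 : orderOf ((z : S) : H) = 2 := by
    rw [Subgroup.orderOf_coe, Subgroup.orderOf_coe]
    exact hz
  have hzc : ∀ s ∈ (S : Subgroup H), ((z : S) : H) * s = s * ((z : S) : H) := by
    intro s hs
    have := Subgroup.mem_center_iff.1 z.2 ⟨s, hs⟩
    exact (congrArg Subtype.val this).symm
  have hle : (S : Subgroup H) ≤ Subgroup.centralizer ({u} : Set H) := by
    intro s hs
    rw [Subgroup.mem_centralizer_singleton_iff]
    exact hE.comm hz2 (hzc s hs) (hzc u huS)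
  have hpg : IsPGroup 2 (Subgroup.centralizer ({u} : Set H)) := by
    rintro ⟨v, hv⟩
    refine ⟨1, ?_⟩
    rw [Subgroup.mem_centralizer_singleton_iff] at hv
    apply Subtype.ext
    have := hE u v hu hv.symm
    rw [pow_one, pow_two]
    exact this
  obtain ⟨S', hS'⟩ := hpg.exists_le_sylow
  apply le_antisymm
  · rw [← card_sylow S' hcard hk]
    exact Subgroup.card_le_of_le hS'
  · rw [← card_sylow S hcard hk]
    exact Subgroup.card_le_of_le hle

theorem E.dvd_invs [Finite H] (hE : E H) {m k : ℕ} (hcard : Nat.card H = 2 ^ m * k) (hk : Odd k) :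
    (2 ^ m - 1) ∣ Nat.card {u : H // orderOf u = 2} := by
  classical
  have := Fintype.ofFinite H
  rw [Nat.card_eq_fintype_card, Fintype.card_subtype]
  set I := Finset.univ.filter (fun u : H => orderOf u = 2) with hI
  have hmem : ∀ u, u ∈ I ↔ orderOf u = 2 := by
    intro u
    rw [hI, Finset.mem_filter]
    simp
  rw [Finset.card_eq_sum_card_image (fun u : H => Subgroup.centralizer ({u} : Set H)) I]
  refine Finset.dvd_sum fun b hb => ?_
  rw [Finset.mem_image] at hb
  obtain ⟨u, hu, rfl⟩ := hb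
  rw [hmem] at hu
  have h1 : I.filter (fun v => Subgroup.centralizer ({v} : Set H) = Subgroup.centralizer ({u} : Set H)) =
      (Finset.univ.filter (fun v : H => v ∈ Subgroup.centralizer ({u} : Set H))).erase 1 := by
    ext v
    simp only [Finset.mem_filter, Finset.mem_erase, hmem, Finset.mem_univ, true_and]
    constructor
    · rintro ⟨hv, hvu⟩
      refine ⟨?_, ?_⟩
      · rintro rfl
        rw [orderOf_one] at hv
        norm_num at hv
      · rw [← hvu, Subgroup.mem_centralizer_singleton_iff]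
    · rintro ⟨hv1, hv⟩
      rw [Subgroup.mem_centralizer_singleton_iff] at hv
      have hv2 := orderOf_two_of (hE u v hu hv.symm) hv1
      refine ⟨hv2, ?_⟩
      ext w
      rw [Subgroup.mem_centralizer_singleton_iff, Subgroup.mem_centralizer_singleton_iff]
      constructor
      · intro hw
        exact hE.comm hv2 hw.symm hv
      · intro hw
        exact hE.comm hu hw.symm hv.symm
  rw [h1, Finset.card_erase_of_mem (by simp), ← Fintype.card_subtype,
    ← Nat.card_eq_fintype_card]
  have h2 : Nat.card {v : H // v ∈ Subgroup.centralizer ({u} : Set H)} = 2 ^ m :=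
    hE.card_cent hu hcard hk
  rw [h2]

/-- the final counting contradiction -/
theorem contra {G : Type*} [Group G] [Finite G] (hE : E G) {q : ℕ} (hq : 6 ≤ q) (hqe : Even q)
    (hcard : Nat.card G = (q - 1) * (q + 1) * q)
    (hinv : Nat.card {u : G // orderOf u = 2} = (q - 1) * (q + 1)) (H : Subgroup G)
    (hH : Nat.card H * 2 = q * (q - 1)) (hHinv : Nat.card {u : H // orderOf u = 2} = q - 1) :
    False := by
  classical
  have := Fintype.ofFinite G
  obtain ⟨k, hk, m, hm⟩ : ∃ k, Odd k ∧ ∃ m, q = 2 ^ m * k := by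
    obtain ⟨m, k, hk, hm⟩ := Nat.exists_eq_two_pow_mul_odd (n := q) (by omega)
    exact ⟨k, hk, m, hm⟩
  have hodd : Odd ((q - 1) * (q + 1)) := by
    obtain ⟨r, hr⟩ := hqe
    exact Odd.mul ⟨r - 1, by omega⟩ ⟨r, by omega⟩
  have hcard2 : Nat.card G = 2 ^ m * ((q - 1) * (q + 1) * k) := by
    rw [hcard]
    calc (q - 1) * (q + 1) * q = (q - 1) * (q + 1) * (2 ^ m * k) := by rw [← hm]
      _ = _ := by ring
  have hko : Odd ((q - 1) * (q + 1) * k) := hodd.mul hk
  -- an involution
  obtain ⟨t, ht⟩ : ∃ t : G, orderOf t = 2 := by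
    by_contra hcon
    push Not at hcon
    have : IsEmpty {u : G // orderOf u = 2} := ⟨fun u => hcon u.1 u.2⟩
    rw [Nat.card_of_isEmpty] at hinv
    have : 0 < (q - 1) * (q + 1) := Nat.mul_pos (by omega) (by omega)
    omega
  have hct := hE.card_cent ht hcard2 hko
  -- class size
  have hcls : Nat.card (MulAction.orbit (ConjAct G) t) * 2 ^ m = (q - 1) * (q + 1) * q := by
    have h1 := Nat.card_congr (MulAction.orbitProdStabilizerEquivGroup (ConjAct G) t)
    rw [Nat.card_prod] at h1
    have h2 : Nat.card (MulAction.stabilizer (ConjAct G) t) = 2 ^ m := by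
      rw [← hct]
      apply Nat.card_congr
      rw [ConjAct.stabilizer_eq_centralizer]
      exact Equiv.refl _
    rw [h2] at h1
    rw [h1, ← hcard]
    rfl
  have hle : Nat.card (MulAction.orbit (ConjAct G) t) ≤ (q - 1) * (q + 1) := by
    rw [← hinv]
    apply Nat.card_le_card_of_injective
      (fun x : MulAction.orbit (ConjAct G) t => (⟨x.1, by
        obtain ⟨g, hg⟩ := x.2
        rw [← ht, ← hg]
        simp only [ConjAct.smul_def]
        exact (SemiconjBy.orderOf_eq _ (show SemiconjBy (ConjAct.ofConjAct g) t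
          (ConjAct.ofConjAct g * t * (ConjAct.ofConjAct g)⁻¹) by
            rw [SemiconjBy]; group)).symm⟩ : {u : G // orderOf u = 2}))
    intro x y hxy
    exact Subtype.ext (congrArg (fun z : {u : G // orderOf u = 2} => z.1) hxy)
  have hpos : 0 < (q - 1) * (q + 1) := Nat.mul_pos (by omega) (by omega)
  have hq2 : q ≤ 2 ^ m := by
    by_contra hcon
    push Not at hcon
    have h1 : Nat.card (MulAction.orbit (ConjAct G) t) * 2 ^ m ≤ (q - 1) * (q + 1) * 2 ^ m :=
      Nat.mul_le_mul_right _ hle
    have h2 : (q - 1) * (q + 1) * 2 ^ m < (q - 1) * (q + 1) * q := Nat.mul_lt_mul_of_pos_left hcon hpos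
    omega
  have hk1 : k = 1 := by
    rcases hk with ⟨r, hr⟩
    by_contra hcon
    have h1 : 3 ≤ k := by omega
    have h2 : 2 ^ m * 3 ≤ 2 ^ m * k := Nat.mul_le_mul_left _ h1
    have h3 : 0 < 2 ^ m := by positivity
    omega
  rw [hk1, mul_one] at hm
  obtain ⟨l, rfl⟩ : ∃ l, m = l + 1 := by
    rcases Nat.eq_zero_or_pos m with h | h
    · rw [h] at hm
      omega
    · exact ⟨m - 1, by omega⟩
  have hqo : Odd (q - 1) := by
    obtain ⟨r, hr⟩ := hqe
    exact ⟨r - 1, by omega⟩
  have hHc : Nat.card H = 2 ^ l * (q - 1) := by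
    have h1 : Nat.card H * 2 = 2 ^ l * (q - 1) * 2 := by
      have h2 : 2 ^ l * (q - 1) * 2 = 2 ^ (l + 1) * (q - 1) := by ring
      rw [hH, h2, ← hm]
    omega
  have h1 := (hE.subgroup H).dvd_invs hHc hqo
  rw [hHinv] at h1
  have h2 : q - 1 = 2 * (2 ^ l - 1) + 1 := by
    have h3 : 0 < 2 ^ l := by positivity
    rw [hm, pow_succ]
    omega
  rw [h2] at h1
  have h3 : (2 ^ l - 1) ∣ 1 := (Nat.dvd_add_right (Dvd.intro_left 2 rfl)).1 h1
  have h4 := Nat.dvd_one.1 h3
  have h5 : 2 ^ l = 2 := by omega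
  rw [pow_succ, h5] at hm
  omega

end H59.ElemCent
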