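import Mathlib
import Cfsg.Agent.Lib.H59.RankOne
import Cfsg.Agent.Lib.H59.KleinN4
import Cfsg.Agent.Lib.H59.OddInv
import Cfsg.Agent.Lib.H20.OrdForm
import Cfsg.Agent.S0942

/-! Simple groups of order 4·p^a·q^b: character-theoretic preparations. -/

set_option autoImplicit false
set_option linter.unusedSectionVars false
set_option linter.style.haveILetI false
open Subgroup Cfsg
open scoped ComplexConjugate

namespace H59.FourPQ

universe u
variable {G : Type u} [Group G] [Finite G]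

/-- a four-group has no nonidentity odd centralizing element when there is a degree 4 character
vanishing at 2-singular elements -/
theorem cen_klein [IsSimpleGroup G] (hnp : ¬ (Nat.card G).Prime) {χ : IrrCharacter G}
    (hχ1 : (χ : G → ℂ) ≠ fun _ => 1) (hd : charDegree (χ : G → ℂ) = 4)
    (hvan : ∀ y, 2 ∣ orderOf y → (χ : G → ℂ) y = 0) {P : Subgroup G} (hP : IsKleinFour P) {y : G}
    (hy : ∀ a ∈ P, a * y = y * a) (hodd : Odd (orderOf y)) : y = 1 := by
  classical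
  letI := Fintype.ofFinite P
  have hcard : Nat.card P = 4 := hP.card_four
  have hev : ∀ a ∈ P, a ≠ 1 → orderOf a = 2 := fun a ha ha1 => H5.KleinSylow.orderOf_eq hP ha ha1
  have hsum1 : ∑ a : P, (χ : G → ℂ) (a : G) = 4 := by
    rw [Finset.sum_eq_single (1 : P)]
    · rw [OneMemClass.coe_one, ← H82.Deg.coe_charDegree' χ, hd]; norm_num
    · intro a _ ha
      apply hvan
      rw [hev a a.2 (fun h => ha (Subtype.ext h))]
    · intro h; exact absurd (Finset.mem_univ _) h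
  have hsum2 : ∑ a : P, (χ : G → ℂ) ((a : G) * y) = (χ : G → ℂ) y := by
    rw [Finset.sum_eq_single (1 : P)]
    · rw [OneMemClass.coe_one, one_mul]
    · intro a _ ha
      apply hvan
      have ha2 := hev a a.2 (fun h => ha (Subtype.ext h))
      have hc : Commute (a : G) y := hy a a.2
      have hcop : Nat.Coprime (orderOf (a : G)) (orderOf y) := by
        rw [ha2]; exact (Nat.coprime_two_left).2 hodd
      rw [hc.orderOf_mul_eq_mul_orderOf_of_coprime hcop, ha2]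
      exact Dvd.intro _ rfl
    · intro h; exact absurd (Finset.mem_univ _) h
  have h1 := H59.RankOne.norm_rank_one (H18.CharBasic.isCharacter_of_isIrr χ.2) P
    (fun a ha b hb => H5.KleinSylow.comm hP ha hb) (g := y) hy (by rw [hsum1, hcard]; norm_num)
  rw [hsum2, hcard, norm_mul, norm_inv] at h1
  apply H59.RankOne.eq_one_of_norm hnp hχ1
  rw [hd]
  have h2 : ‖((4 : ℕ) : ℂ)‖ = 4 := by simp
  rw [h2] at h1
  push_cast
  linarith

/-- integrality over a subgroup -/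
theorem val_inv {χ : IrrCharacter G} {t : G} (ht : orderOf t = 2) :
    ∃ n : ℤ, (χ : G → ℂ) t = n ∧ (2 : ℤ) ∣ (charDegree (χ : G → ℂ) : ℤ) - n ∧
      |n| ≤ charDegree (χ : G → ℂ) := by
  obtain ⟨n, h1, h2⟩ := Cfsg.Agent.S0944.result χ t ht
  refine ⟨n, h1, h2, ?_⟩
  have h3 := H18.CharBasic.char_norm_le (H18.CharBasic.isCharacter_of_isIrr χ.2) t
  rw [h1, ← H82.Deg.coe_charDegree' χ, Complex.norm_intCast, Complex.natCast_re] at h3
  exact_mod_cast h3

theorem val_inv_lt [IsSimpleGroup G] (hnp : ¬ (Nat.card G).Prime) {χ : IrrCharacter G}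
    (hχ1 : (χ : G → ℂ) ≠ fun _ => 1) {t : G} (ht : orderOf t = 2) :
    ∃ n : ℤ, (χ : G → ℂ) t = n ∧ (2 : ℤ) ∣ (charDegree (χ : G → ℂ) : ℤ) - n ∧
      |n| < charDegree (χ : G → ℂ) := by
  obtain ⟨n, h1, h2, h3⟩ := val_inv (χ := χ) ht
  refine ⟨n, h1, h2, lt_of_le_of_ne h3 ?_⟩
  intro h4
  have h5 : t = 1 := by
    apply H59.RankOne.eq_one_of_norm hnp hχ1
    rw [h1, Complex.norm_intCast]
    exact_mod_cast h4
  rw [h5] at ht; simp at ht

theorem degree_ne_two [IsSimpleGroup G] (hnp : ¬ (Nat.card G).Prime) {χ : IrrCharacter G}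
    (hχ1 : (χ : G → ℂ) ≠ fun _ => 1) {P : Subgroup G} (hP : IsKleinFour P) :
    charDegree (χ : G → ℂ) ≠ 2 := by
  classical
  intro hd
  letI := Fintype.ofFinite P
  have hcard : Nat.card P = 4 := hP.card_four
  have hev : ∀ a ∈ P, a ≠ 1 → orderOf a = 2 := fun a ha ha1 => H5.KleinSylow.orderOf_eq hP ha ha1
  have hsum1 : ∑ a : P, (χ : G → ℂ) (a : G) = 2 := by
    rw [Finset.sum_eq_single (1 : P)]
    · rw [OneMemClass.coe_one, ← H82.Deg.coe_charDegree' χ, hd]; norm_num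
    · intro a _ ha
      obtain ⟨n, h1, h2, h3⟩ := val_inv_lt hnp hχ1 (hev a a.2 (fun h => ha (Subtype.ext h)))
      rw [h1]
      rw [hd] at h2 h3
      have h4 := abs_lt.1 h3
      have : n = 0 := by push_cast at h2 h3 h4; omega
      rw [this]; simp
    · intro h; exact absurd (Finset.mem_univ _) h
  obtain ⟨m, hm⟩ := H59.Cols3.sum_subgroup P χ
  rw [hsum1, hcard] at hm
  have h3 : (2 : ℕ) = 4 * m := by exact_mod_cast hm
  omega

/-- The multiplicities of the principal block characters in a square modulus vanishing at 2-singular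
elements. -/
theorem mults [Fintype G] {χ ζ₂ ζ₃ ζ₄ : IrrCharacter G} {ε : ℤ}
    (hvan : ∀ y, 2 ∣ orderOf y → (χ : G → ℂ) y = 0)
    (hrel : ∀ y : G, Odd (orderOf y) →
      1 + (ζ₂ : G → ℂ) y + (ε : ℂ) * (ζ₃ : G → ℂ) y - (ζ₄ : G → ℂ) y = 0)
    (h12 : (ζ₂ : G → ℂ) ≠ fun _ => 1) (h13 : (ζ₃ : G → ℂ) ≠ fun _ => 1)
    (h14 : (ζ₄ : G → ℂ) ≠ fun _ => 1) (h23 : ζ₂ ≠ ζ₃) (h24 : ζ₂ ≠ ζ₄) (h34 : ζ₃ ≠ ζ₄) :
    ∃ m₂ m₃ m₄ : ℕ, (1 : ℤ) + m₂ + ε * m₃ - m₄ = 0 ∧
      1 + m₂ * charDegree (ζ₂ : G → ℂ) + m₃ * charDegree (ζ₃ : G → ℂ) + m₄ * charDegree (ζ₄ : G → ℂ) ≤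
        charDegree (χ : G → ℂ) ^ 2 := by
  classical
  letI := Fintype.ofFinite (IrrCharacter G)
  obtain ⟨m, hm, hexp⟩ := H59.RankOne.char_expand (H59.RankOne.isCharacter_normSq χ)
  set o : IrrCharacter G := H82.Simple.triv G with ho
  have hone : m o = 1 := by
    have h1 := hm o
    rw [show ((o : IrrCharacter G) : G → ℂ) = fun _ => 1 from rfl, H59.RankOne.inner_normSq_one χ] at h1
    exact_mod_cast h1.symm
  refine ⟨m ζ₂, m ζ₃, m ζ₄, ?_, ?_⟩
  · have h1 : classInner (fun g => (χ : G → ℂ) g * conj ((χ : G → ℂ) g))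
        ((o : G → ℂ) + (ζ₂ : G → ℂ) + (ε : ℂ) • (ζ₃ : G → ℂ) - (ζ₄ : G → ℂ)) = 0 := by
      unfold classInner
      rw [Finset.sum_eq_zero, mul_zero]
      intro g _
      by_cases hg : 2 ∣ orderOf g
      · show ((χ : G → ℂ) g * conj ((χ : G → ℂ) g)) * _ = 0
        rw [hvan g hg]; simp
      · have h2 : ((o : G → ℂ) + (ζ₂ : G → ℂ) + (ε : ℂ) • (ζ₃ : G → ℂ) - (ζ₄ : G → ℂ)) g = 0 := by
          rw [← hrel g (by rw [← Nat.not_even_iff_odd, even_iff_two_dvd]; exact hg)]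
          simp only [Pi.sub_apply, Pi.add_apply, Pi.smul_apply, smul_eq_mul]
          rfl
        rw [h2]; simp
    rw [H18.CharOrtho.inner_sub_right, H18.CharOrtho.inner_add_right, H18.CharOrtho.inner_add_right,
      H18.CharOrtho.inner_smul_right, hm, hm, hm, hm, hone] at h1
    rw [map_intCast] at h1
    have h2 : (((1 : ℤ) + m ζ₂ + ε * m ζ₃ - m ζ₄ : ℤ) : ℂ) = ((0 : ℤ) : ℂ) := by
      push_cast
      push_cast at h1
      exact h1
    exact_mod_cast h2
  · have h1 := hexp 1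
    have h2 : (charDegree (χ : G → ℂ) ^ 2 : ℕ) = ∑ ψ : IrrCharacter G, m ψ * charDegree (ψ : G → ℂ) := by
      have h3 : ((charDegree (χ : G → ℂ) ^ 2 : ℕ) : ℂ) =
          ((∑ ψ : IrrCharacter G, m ψ * charDegree (ψ : G → ℂ) : ℕ) : ℂ) := by
        push_cast
        have h4 : ∀ ψ : IrrCharacter G, (charDegree (ψ : G → ℂ) : ℂ) = (ψ : G → ℂ) 1 := fun ψ =>
          H82.Deg.coe_charDegree' ψ
        rw [Finset.sum_congr rfl fun ψ _ => by rw [h4 ψ], ← h1, ← h4 χ]
        simp [pow_two]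
      exact_mod_cast h3
    rw [h2]
    have h3 : ∑ ψ ∈ ({o, ζ₂, ζ₃, ζ₄} : Finset (IrrCharacter G)), m ψ * charDegree (ψ : G → ℂ) ≤
        ∑ ψ : IrrCharacter G, m ψ * charDegree (ψ : G → ℂ) :=
      Finset.sum_le_sum_of_subset (Finset.subset_univ _)
    refine le_trans (le_of_eq ?_) h3
    have n2 : o ≠ ζ₂ := fun h => h12 (by rw [← h]; rfl)
    have n3 : o ≠ ζ₃ := fun h => h13 (by rw [← h]; rfl)
    have n4 : o ≠ ζ₄ := fun h => h14 (by rw [← h]; rfl)
    rw [Finset.sum_insert (by simp [n2, n3, n4]), Finset.sum_insert (by simp [h23, h24]),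
      Finset.sum_pair h34, hone, ho, H82.Simple.charDegree_triv]
    ring

end H59.FourPQ
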