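import Mathlib

/-! Elementary number theory for simple groups of order 4·p^a·q^b. -/

set_option autoImplicit false

namespace H59.FourPQ

set_option maxHeartbeats 8000000 in
theorem a7 {x y k l : ℕ} (h : 3 ^ x * 7 ^ y + 6 = 3 ^ k * 7 ^ l)
    (hb : (x ≤ 2 ∧ k ≤ 2) ∨ (y ≤ 2 ∧ l ≤ 2)) (h4 : (3 ^ x * 7 ^ y) % 4 = 3) :
    3 ^ x * 7 ^ y = 3 ∨ 3 ^ x * 7 ^ y = 21 := by
  have h3 : ∀ n : ℕ, 1 ≤ 3 ^ n := fun n => Nat.one_le_pow _ _ (by norm_num)
  have h7 : ∀ n : ℕ, 1 ≤ 7 ^ n := fun n => Nat.one_le_pow _ _ (by norm_num)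
  rcases hb with ⟨hx, hk⟩ | ⟨hy, hl⟩
  · rcases y with _ | _ | _ | y <;> rcases l with _ | _ | _ | l <;>
      (try have hy1 := h7 y) <;> (try have hl1 := h7 l) <;>
      interval_cases x <;> interval_cases k <;> simp only [pow_succ, pow_zero] at * <;> omega
  · rcases x with _ | _ | _ | _ | _ | x <;> rcases k with _ | _ | _ | _ | _ | k <;>
      (try have hx1 := h3 x) <;> (try have hk1 := h3 k) <;>
      interval_cases y <;> interval_cases l <;> simp only [pow_succ, pow_zero] at * <;> omega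

set_option maxHeartbeats 8000000 in
theorem a11 {x y k l : ℕ} (h : 3 ^ x * 11 ^ y + 10 = 3 ^ k * 11 ^ l)
    (hb : (x ≤ 2 ∧ k ≤ 2) ∨ (y ≤ 2 ∧ l ≤ 2)) (h4 : (3 ^ x * 11 ^ y) % 4 = 3) : False := by
  have h3 : ∀ n : ℕ, 1 ≤ 3 ^ n := fun n => Nat.one_le_pow _ _ (by norm_num)
  have h7 : ∀ n : ℕ, 1 ≤ 11 ^ n := fun n => Nat.one_le_pow _ _ (by norm_num)
  rcases hb with ⟨hx, hk⟩ | ⟨hy, hl⟩
  · rcases y with _ | _ | _ | y <;> rcases l with _ | _ | _ | l <;>
      (try have hy1 := h7 y) <;> (try have hl1 := h7 l) <;>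
      interval_cases x <;> interval_cases k <;> simp only [pow_succ, pow_zero] at * <;> omega
  · rcases x with _ | _ | _ | _ | _ | x <;> rcases k with _ | _ | _ | _ | _ | k <;>
      (try have hx1 := h3 x) <;> (try have hk1 := h3 k) <;>
      interval_cases y <;> interval_cases l <;> simp only [pow_succ, pow_zero] at * <;> omega

set_option maxHeartbeats 8000000 in
theorem a15 {x y k l : ℕ} (h : 3 ^ x * 5 ^ y + 14 = 3 ^ k * 5 ^ l)
    (hb : (x ≤ 2 ∧ k ≤ 2) ∨ (y ≤ 2 ∧ l ≤ 2)) (h4 : (3 ^ x * 5 ^ y) % 4 = 3) : False := by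
  have h3 : ∀ n : ℕ, 1 ≤ 3 ^ n := fun n => Nat.one_le_pow _ _ (by norm_num)
  have h7 : ∀ n : ℕ, 1 ≤ 5 ^ n := fun n => Nat.one_le_pow _ _ (by norm_num)
  rcases hb with ⟨hx, hk⟩ | ⟨hy, hl⟩
  · rcases y with _ | _ | _ | y <;> rcases l with _ | _ | _ | l <;>
      (try have hy1 := h7 y) <;> (try have hl1 := h7 l) <;>
      interval_cases x <;> interval_cases k <;> simp only [pow_succ, pow_zero] at * <;> omega
  · rcases x with _ | _ | _ | _ | _ | x <;> rcases k with _ | _ | _ | _ | _ | k <;>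
      (try have hx1 := h3 x) <;> (try have hk1 := h3 k) <;>
      interval_cases y <;> interval_cases l <;> simp only [pow_succ, pow_zero] at * <;> omega

theorem arith_neg {A B z r i j x y k l : ℕ} (hA : A % 4 = 3) (hB : B % 4 = 3) (hA15 : A ≤ 15)
    (hz : z + 1 = A + B) (hBr : B = 3 ^ x * r ^ y) (hzr : z = 3 ^ k * r ^ l) (hx : x ≤ i)
    (hk : k ≤ i) (hy : y ≤ j) (hl : l ≤ j) (hb : i ≤ 2 ∨ j ≤ 2)
    (hp : ∀ s : ℕ, s.Prime → s ∣ A → s = 2 ∨ s = 3 ∨ s = r) :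
    A = 3 ∨ B = 3 ∨ (A = 7 ∧ B = 21 ∧ r = 7) := by
  have hb' : (x ≤ 2 ∧ k ≤ 2) ∨ (y ≤ 2 ∧ l ≤ 2) := by
    rcases hb with h | h
    · left; omega
    · right; omega
  have hcases : A = 3 ∨ A = 7 ∨ A = 11 ∨ A = 15 := by omega
  rcases hcases with h | h | h | h
  · exact Or.inl h
  · have hr : r = 7 := by
      rcases hp 7 (by norm_num) (by rw [h]) with h' | h' | h' <;> omega
    subst hr
    rcases a7 (by rw [← hBr, ← hzr]; omega) hb' (by rw [← hBr]; exact hB) with h1 | h1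
    · right; left; rw [hBr]; exact h1
    · right; right; exact ⟨h, by rw [hBr]; exact h1, rfl⟩
  · have hr : r = 11 := by
      rcases hp 11 (by norm_num) (by rw [h]) with h' | h' | h' <;> omega
    subst hr
    exact (a11 (by rw [← hBr, ← hzr]; omega) hb' (by rw [← hBr]; exact hB)).elim
  · have hr : r = 5 := by
      rcases hp 5 (by norm_num) (by rw [h]; norm_num) with h' | h' | h' <;> omega
    subst hr
    exact (a15 (by rw [← hBr, ← hzr]; omega) hb' (by rw [← hBr]; exact hB)).elim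

end H59.FourPQ
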