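import Mathlib
import Cfsg.Agent.Lib.H59.FourPQ1
import Cfsg.Agent.S4500

/-! Simple groups of order 4·3^i·r^j: local analysis. -/

set_option autoImplicit false
set_option linter.unusedSectionVars false
set_option linter.style.haveILetI false
open Subgroup Cfsg
open scoped ComplexConjugate

namespace H59.FourPQ

universe u
variable {G : Type u} [Group G] [Finite G]

/-- the odd elements of the centralizer lie in its odd core -/
theorem mem_core {J y : G} (hidx : ∃ k : ℕ, (pPrimeCore 2 (centralizer ({J} : Set G))).index = 2 ^ k)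
    (hy : y * J = J * y) (hodd : Odd (orderOf y)) : y ∈ centralizerPPrimeCore 2 J := by
  obtain ⟨k, hk⟩ := hidx
  have hyC : y ∈ centralizer ({J} : Set G) := mem_centralizer_singleton_iff.2 hy
  refine ⟨⟨y, hyC⟩, ?_, rfl⟩
  have h1 : (⟨y, hyC⟩ : centralizer ({J} : Set G)) ^ 2 ^ k ∈ pPrimeCore 2 (centralizer ({J} : Set G)) := by
    rw [← hk]
    exact Subgroup.pow_index_mem _ _
  have h2 : (2 ^ k).Coprime (orderOf (⟨y, hyC⟩ : centralizer ({J} : Set G))) := by
    rw [Subgroup.orderOf_mk]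
    exact Nat.Coprime.pow_left k (Nat.coprime_two_left.2 hodd)
  obtain ⟨m, hm⟩ := exists_pow_eq_self_of_coprime h2
  rw [← hm]
  exact pow_mem h1 m

theorem odd_of_mem_core {J y : G} (hy : y ∈ centralizerPPrimeCore 2 J) :
    Odd (orderOf y) ∧ y * J = J * y := by
  obtain ⟨c, hc, rfl⟩ := hy
  constructor
  · have h1 := H1.Cores.coprime_card_pPrimeCore (G := centralizer ({J} : Set G)) 2
    have h2 : orderOf c ∣ Nat.card (pPrimeCore 2 (centralizer ({J} : Set G))) := by
      have := orderOf_dvd_natCard (⟨c, hc⟩ : pPrimeCore 2 (centralizer ({J} : Set G)))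
      rwa [Subgroup.orderOf_mk] at this
    have h3 := Nat.Coprime.coprime_dvd_left h2 h1
    rw [Subgroup.coe_subtype, Subgroup.orderOf_coe]
    exact Nat.coprime_two_right.1 h3
  · exact mem_centralizer_singleton_iff.1 c.2

theorem conj_mem_core {J v y : G} (hv : v * J = J * v) (hy : y ∈ centralizerPPrimeCore 2 J) :
    v * y * v⁻¹ ∈ centralizerPPrimeCore 2 J := by
  obtain ⟨c, hc, rfl⟩ := hy
  have hvC : v ∈ centralizer ({J} : Set G) := mem_centralizer_singleton_iff.2 hv
  exact ⟨⟨v, hvC⟩ * c * ⟨v, hvC⟩⁻¹,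
    (H1.Cores.pPrimeCore_normal 2).conj_mem c hc _, rfl⟩

/-- the centralizer of a set with no odd elements is a 2-group -/
theorem card_two_pow {H : Subgroup G} (h : ∀ y ∈ H, Odd (orderOf y) → y = 1) :
    ∃ k, Nat.card H = 2 ^ k := by
  rcases Nat.eq_two_pow_or_exists_odd_prime_and_dvd (Nat.card H) with h1 | ⟨s, hs, hd, hodd⟩
  · exact h1
  · exfalso
    have : Fact s.Prime := ⟨hs⟩
    obtain ⟨y, hy⟩ := exists_prime_orderOf_dvd_card' s hd
    have h2 : orderOf (y : G) = s := by rw [Subgroup.orderOf_coe, hy]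
    have h3 := h y y.2 (by rw [h2]; exact hodd)
    rw [h3, orderOf_one] at h2
    exact hs.one_lt.ne h2

theorem eq_of_two_group {g₀ : ℕ} (hg₀ : Odd g₀) (hG : Nat.card G = 4 * g₀) {P H : Subgroup G}
    (hP : Nat.card P = 4) (hle : P ≤ H) (h : ∀ y ∈ H, Odd (orderOf y) → y = 1) : P = H := by
  obtain ⟨k, hk⟩ := card_two_pow h
  have h1 : 2 ^ k ∣ 4 * g₀ := by rw [← hk, ← hG]; exact card_subgroup_dvd_card H
  have h2 : 2 ^ k ∣ 4 := by
    apply Nat.Coprime.dvd_of_dvd_mul_right _ h1
    exact Nat.Coprime.pow_left k (Nat.coprime_two_left.2 hg₀)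
  apply Subgroup.eq_of_le_of_card_ge hle
  rw [hP, hk]
  exact Nat.le_of_dvd (by norm_num) h2

/-- a degree 3 character of the principal block with value `-1` at the involution -/
theorem centralizer_eq_of_three [IsSimpleGroup G] (hnp : ¬ (Nat.card G).Prime) {M : Ideal AlgInt}
    (hM : IsPModular 2 M) {g₀ : ℕ} (hg₀ : Odd g₀) (hG : Nat.card G = 4 * g₀) {P : Sylow 2 G}
    {J v : G} (hyp : H20.V4.Hyp P J v) (hk : IsKleinFour (P : Subgroup G))
    (hcen : ∀ y : G, y * J = J * y → y * v = v * y → Odd (orderOf y) → y = 1)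
    {X : IrrCharacter G} (hXB : X ∈ principalBlock M G) (hX3 : charDegree (X : G → ℂ) = 3)
    (hXJ : (X : G → ℂ) J = -1) : (P : Subgroup G) = centralizer ({J} : Set G) := by
  classical
  have : Fact (Nat.Prime 2) := ⟨Nat.prime_two⟩
  have hJ2 : orderOf J = 2 := orderOf_eq_prime (by rw [pow_two]; exact hyp.u2) hyp.u1
  have hX1 : (X : G → ℂ) ≠ fun _ => 1 := by
    intro h
    rw [h] at hXJ
    norm_num at hXJ
  have hidx := H20.V4.index_pPrimeCore_cen hyp hyp.hu hyp.u1
  have hvJ : v * J = J * v := hyp.comm v hyp.hv J hyp.hu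
  refine eq_of_two_group hg₀ hG hk.card_four ?_ ?_
  · intro x hx
    rw [mem_centralizer_singleton_iff]
    exact hyp.comm x hx J hyp.hu
  intro y hy hodd
  rw [mem_centralizer_singleton_iff] at hy
  have hyU := mem_core hidx hy hodd
  -- `v` inverts `y`
  have hinv : v * y * v⁻¹ = y⁻¹ := by
    refine H59.OddInv.inverts_of_fixedPointFree (centralizerPPrimeCore 2 J) v
      (by rw [pow_two]; exact hyp.v2) ?_ ?_ y hyU
    · rw [mem_normalizer_iff]
      intro z
      constructor
      · exact fun hz => conj_mem_core hvJ hz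
      · intro hz
        have h1 : v⁻¹ * J = J * v⁻¹ := by
          rw [inv_mul_eq_iff_eq_mul, ← mul_assoc, hvJ, mul_assoc, mul_inv_cancel, mul_one]
        have h2 := conj_mem_core h1 hz
        have e : v⁻¹ * (v * z * v⁻¹) * v⁻¹⁻¹ = z := by group
        rwa [e] at h2
    · intro z hz hvz
      obtain ⟨h1, h2⟩ := odd_of_mem_core hz
      exact hcen z h2 hvz.symm h1
  have hreal : conj ((X : G → ℂ) y) = (X : G → ℂ) y := by
    rw [← H18.CharBasic.char_inv (H18.CharBasic.isCharacter_of_isIrr X.2), ← hinv]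
    exact H18.CharBasic.isClassFunction_of_isIrr X.2 y v
  have hJy : (X : G → ℂ) (J * y) = -1 := by
    rw [Cfsg.Agent.S0942.result 2 M hM J ⟨1, by rw [hJ2, pow_one]⟩ y hyU X hXB, hXJ]
  -- the fixed space of `J`
  have hc2 : Nat.card (zpowers J) = 2 := by rw [Nat.card_zpowers, hJ2]
  letI := Fintype.ofFinite (zpowers J)
  have hsum : ∀ f : G → ℂ, ∑ a : zpowers J, f (a : G) = f 1 + f J := by
    intro f
    have huniv : (Finset.univ : Finset (zpowers J)) = {1, ⟨J, mem_zpowers J⟩} := by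
      symm
      apply Finset.eq_univ_of_card
      rw [Finset.card_pair, ← Nat.card_eq_fintype_card, hc2]
      intro h
      exact hyp.u1 (congrArg Subtype.val h).symm
    rw [huniv, Finset.sum_pair]
    · rfl
    · intro h
      exact hyp.u1 (congrArg Subtype.val h).symm
  have hX1v : (X : G → ℂ) 1 = 3 := by rw [← H82.Deg.coe_charDegree' X, hX3]; norm_num
  have hA : ∀ a ∈ zpowers J, ∀ b ∈ zpowers J, a * b = b * a := by
    intro a ha b hb
    obtain ⟨i, rfl⟩ := mem_zpowers_iff.1 ha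
    obtain ⟨j, rfl⟩ := mem_zpowers_iff.1 hb
    rw [← zpow_add, ← zpow_add, add_comm]
  have hg : ∀ a ∈ zpowers J, a * y = y * a := by
    intro a ha
    obtain ⟨i, rfl⟩ := mem_zpowers_iff.1 ha
    have : Commute y J := hy
    exact (this.zpow_right i).symm.eq
  have h1 := H59.RankOne.rank_one (H18.CharBasic.isCharacter_of_isIrr X.2) (zpowers J) hA hg (by
    rw [hsum (X : G → ℂ), hX1v, hXJ, hc2]; norm_num)
  rw [hsum (fun a => (X : G → ℂ) (a * y)), one_mul, hJy, hc2] at h1
  set κ : ℂ := ((2 : ℕ) : ℂ)⁻¹ * ((X : G → ℂ) y + -1) with hκ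
  have hκr : conj κ = κ := by
    rw [hκ, map_mul, map_add, hreal, map_inv₀, map_natCast, map_neg, map_one]
  obtain ⟨ρ, hρ⟩ := Complex.conj_eq_iff_real.1 hκr
  rw [hρ] at h1
  have h2 : ρ ^ orderOf y = 1 := by exact_mod_cast h1
  have h3 : ρ = 1 := by
    have : ρ ^ orderOf y = 1 ^ orderOf y := by rw [h2, one_pow]
    exact hodd.strictMono_pow.injective this
  have h4 : (X : G → ℂ) y = 3 := by
    rw [h3, hκ] at hρ
    push_cast at hρ
    linear_combination 2 * hρ
  apply H59.RankOne.eq_one_of_norm hnp hX1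
  rw [h4, hX3]
  norm_num

end H59.FourPQ
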