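import Mathlib
import Cfsg.Agent.Lib.H59.FourPQ1
import Cfsg.Agent.Lib.H59.FourPQ2
import Cfsg.Agent.Lib.H59.FourPQ3
import Cfsg.Agent.S4500

/-! Simple groups of order 4·3^i·r^j. -/

set_option autoImplicit false
set_option linter.unusedSectionVars false
set_option linter.style.haveILetI false
set_option linter.unusedSimpArgs false
open Subgroup Cfsg
open scoped ComplexConjugate

namespace H59.FourPQ

universe u
variable {G : Type u} [Group G] [Finite G]

theorem exists_degree_four [IsSimpleGroup G] (hna : ¬ ∀ a b : G, a * b = b * a)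
    (hnp : ¬ (Nat.card G).Prime) {r i j : ℕ} (hr : r.Prime) (hr2 : r ≠ 2) (hr3 : r ≠ 3)
    (hb : i ≤ 2 ∨ j ≤ 2) (hG : Nat.card G = 4 * (3 ^ i * r ^ j)) {P : Subgroup G}
    (hP : IsKleinFour P) :
    ∃ χ : IrrCharacter G, (χ : G → ℂ) ≠ (fun _ => 1) ∧ charDegree (χ : G → ℂ) = 4 := by
  have hodd : Odd (3 ^ i * r ^ j) := by
    have h1 : Odd r := hr.odd_of_ne_two hr2
    exact (Odd.pow (by decide)).mul h1.pow
  have key : ∃ χ : IrrCharacter G, (χ : G → ℂ) ≠ (fun _ => 1) ∧ ∃ k, charDegree (χ : G → ℂ) = 2 ^ k := by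
    rcases hb with h | h
    · exact (Cfsg.Agent.S4500.result 3 2 r i 2 j Nat.prime_three Nat.prime_two hr (by norm_num)
        (Ne.symm hr3) (Ne.symm hr2) h (by rw [hG]; ring)).1
    · exact (Cfsg.Agent.S4500.result r 2 3 j 2 i hr Nat.prime_two Nat.prime_three hr2
        hr3 (by norm_num) h (by rw [hG]; ring)).1
  obtain ⟨χ, hχ, k, hk⟩ := key
  refine ⟨χ, hχ, ?_⟩
  have hd : 2 ^ k ∣ 4 * (3 ^ i * r ^ j) := by
    rw [← hk, ← hG]; exact H20.Defect.charDegree_dvd_card χ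
  have hd2 : 2 ^ k ∣ 2 ^ 2 :=
    Nat.Coprime.dvd_of_dvd_mul_right (Nat.Coprime.pow_left k (Nat.coprime_two_left.2 hodd)) hd
  have hk2 : k ≤ 2 := (Nat.pow_dvd_pow_iff_le_right (by norm_num)).1 hd2
  interval_cases k
  · exfalso
    exact hχ (H59.KleinN.eq_one_of_degree hna χ hk)
  · exact absurd hk (degree_ne_two hnp hχ hP)
  · exact hk

theorem three_dvd [IsSimpleGroup G] {g₀ : ℕ} (hG : Nat.card G = 4 * g₀)
    (hnc : ¬ ∃ N : Subgroup G, N.Normal ∧ Nat.card N = g₀) {P : Sylow 2 G}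
    {J v : G} (hyp : H20.V4.Hyp P J v) (hk : IsKleinFour (P : Subgroup G)) : 3 ∣ Nat.card G := by
  have : Fact (Nat.Prime 2) := ⟨Nat.prime_two⟩
  rcases H20.V4.relIndex_eq hyp with h1 | h1
  · exfalso
    have h2 : Subgroup.normalizer (P : Set G) ≤ Subgroup.centralizer (P : Set G) :=
      Subgroup.relIndex_eq_one.1 h1
    apply hnc
    refine ⟨(MonoidHom.transferSylow P h2).ker, inferInstance, ?_⟩
    have h3 := (MonoidHom.ker_transferSylow_isComplement' P h2).card_mul_card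
    have h4 : Nat.card (P : Subgroup G) = 4 := hk.card_four
    rw [h4, hG] at h3
    omega
  · have h2 : (Subgroup.centralizer (P : Set G)).relIndex (Subgroup.normalizer (P : Set G)) ∣
        Nat.card (Subgroup.normalizer (P : Set G)) := Subgroup.relIndex_dvd_card _ _
    rw [h1] at h2
    exact h2.trans (Subgroup.card_subgroup_dvd_card _)

theorem main [IsSimpleGroup G] (hna : ∃ x y : G, x * y ≠ y * x) {r i j : ℕ} (hr : r.Prime)
    (hr2 : r ≠ 2) (hr3 : r ≠ 3) (hb : i ≤ 2 ∨ j ≤ 2) (hG : Nat.card G = 4 * (3 ^ i * r ^ j)) :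
    Nonempty (G ≃* alternatingGroup (Fin 5)) := by
  classical
  have : Fact (Nat.Prime 2) := ⟨Nat.prime_two⟩
  have hna' : ¬ ∀ a b : G, a * b = b * a := fun h => by
    obtain ⟨x, y, hxy⟩ := hna; exact hxy (h x y)
  have hnp := H59.RankOne.not_prime_of_nonabelian hna
  have hg₀ : Odd (3 ^ i * r ^ j) := by
    have h1 : Odd r := hr.odd_of_ne_two hr2
    exact (Odd.pow (by decide)).mul h1.pow
  have hprime : ∀ s, s.Prime → s ∣ Nat.card G → s = 2 ∨ s = 3 ∨ s = r := by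
    intro s hs hd
    rw [hG] at hd
    rcases (hs.dvd_mul).1 hd with h | h
    · left
      have h' : s ∣ 2 ^ 2 := h
      exact (Nat.prime_dvd_prime_iff_eq hs Nat.prime_two).1 (hs.dvd_of_dvd_pow h')
    · right
      rcases (hs.dvd_mul).1 h with h | h
      · left; exact (Nat.prime_dvd_prime_iff_eq hs Nat.prime_three).1 (hs.dvd_of_dvd_pow h)
      · right; exact (Nat.prime_dvd_prime_iff_eq hs hr).1 (hs.dvd_of_dvd_pow h)
  have hg₀1 : 1 ≤ 3 ^ i * r ^ j := hg₀.pos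
  have hnc : ¬ ∃ N : Subgroup G, N.Normal ∧ Nat.card N = 3 ^ i * r ^ j := by
    rintro ⟨N, hN, hc⟩
    rcases hN.eq_bot_or_eq_top with h | h
    · rw [h, Subgroup.card_bot] at hc
      have h4 : Nat.card G = 4 := by rw [hG, ← hc]
      have hp : IsPGroup 2 G := IsPGroup.of_card (n := 2) (by rw [h4]; norm_num)
      have hnil : Group.IsNilpotent G := hp.isNilpotent
      have hsol : Group.IsSolvable G := inferInstance
      exact hna' (IsSimpleGroup.comm_iff_isSolvable.2 hsol)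
    · rw [h, Subgroup.card_top, hG] at hc
      omega
  obtain ⟨P⟩ : Nonempty (Sylow 2 G) := inferInstance
  have hPcard : Nat.card (P : Subgroup G) = 4 := by
    rw [P.card_eq_multiplicity, hG, show (4 : ℕ) = 2 ^ 2 by norm_num,
      Nat.factorization_mul (by norm_num) (by omega), Finsupp.add_apply,
      Nat.factorization_eq_zero_of_not_dvd (n := 3 ^ i * r ^ j) (by
        rw [← even_iff_two_dvd, Nat.not_even_iff_odd]; exact hg₀),
      Nat.Prime.factorization_pow Nat.prime_two, Finsupp.single_eq_same, add_zero]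
  obtain ⟨J', hJ'⟩ := exists_prime_orderOf_dvd_card' (G := (P : Subgroup G)) 2 (by rw [hPcard]; norm_num)
  obtain ⟨J, hJP⟩ := J'
  have hJ2 : orderOf J = 2 := by rwa [Subgroup.orderOf_mk] at hJ'
  obtain ⟨hk, hone, v, hyp⟩ := H20.OrdForm.setup hg₀ hG hnc P hJP hJ2
  obtain ⟨M, hM⟩ := H78.Cong.exists_isPModular Nat.prime_two
  obtain ⟨ζ₂, ζ₃, ζ₄, ε, hε, h12, h13, h23, h24, h34, hB, hval, hd2, hd3, hd4, hrel⟩ :=
    H20.Klein.main hM P hk hone
  have h14 : (ζ₄ : G → ℂ) ≠ fun _ => 1 := by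
    intro h
    have := (hval J hJ2).2.2
    rw [h] at this
    norm_num at this
  obtain ⟨χ, hχ1, hχd⟩ := exists_degree_four hna' hnp hr hr2 hr3 hb hG hk
  have hvan : ∀ y, 2 ∣ orderOf y → (χ : G → ℂ) y = 0 := by
    intro y hy
    apply H20.DefZero.vanish_of_full_degree hM _ hy
    rw [hχd, hG, show (4 : ℕ) = 2 ^ 2 by norm_num,
      Nat.factorization_mul (by norm_num) (by omega), Finsupp.add_apply,
      Nat.factorization_eq_zero_of_not_dvd (n := 3 ^ i * r ^ j) (by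
        rw [← even_iff_two_dvd, Nat.not_even_iff_odd]; exact hg₀), add_zero]
  -- the centralizer of `P`
  have hcenP : ∀ y : G, (∀ a ∈ (P : Subgroup G), a * y = y * a) → Odd (orderOf y) → y = 1 :=
    fun y hy hodd => cen_klein hnp hχ1 hχd hvan hk hy hodd
  have hfour : ∀ a ∈ (P : Subgroup G), a = 1 ∨ a = J ∨ a = v ∨ a = J * v := fun a ha =>
    H59.Klein1.four_cases hk hyp.hu hyp.hv hyp.u1 hyp.v1 hyp.uv ha
  have hcen : ∀ y : G, y * J = J * y → y * v = v * y → Odd (orderOf y) → y = 1 := by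
    intro y h1 h2 hodd
    apply hcenP y _ hodd
    intro a ha
    rcases hfour a ha with h | h | h | h
    · rw [h, one_mul, mul_one]
    · rw [h, h1]
    · rw [h, h2]
    · rw [h, mul_assoc, ← h2, ← mul_assoc, ← h1, mul_assoc]
  have hCP : (P : Subgroup G) = centralizer ((P : Subgroup G) : Set G) := by
    refine eq_of_two_group hg₀ hG hPcard ?_ ?_
    · intro x hx
      rw [mem_centralizer_iff]
      intro y hy
      exact hyp.comm y hy x hx
    · intro y hy hodd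
      apply hcenP y _ hodd
      intro a ha
      exact mem_centralizer_iff.1 hy a ha
  have hCP4 : Nat.card (centralizer ((P : Subgroup G) : Set G)) = 4 := by rw [← hCP]; exact hPcard
  have h3G := three_dvd hG hnc hyp hk
  have hi1 : 1 ≤ i := by
    by_contra hcon
    have hi0 : i = 0 := by omega
    rw [hG, hi0, pow_zero, one_mul] at h3G
    rcases (Nat.prime_three.dvd_mul).1 h3G with h | h
    · norm_num at h
    · exact hr3 ((Nat.prime_dvd_prime_iff_eq Nat.prime_three hr).1 (Nat.prime_three.dvd_of_dvd_pow h)).symm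
  -- multiplicities
  letI := Fintype.ofFinite G
  obtain ⟨m₂, m₃, m₄, hmrel, hmle⟩ := mults hvan hrel h12 h13 h14 h23 h24 h34
  rw [hχd] at hmle
  -- order formula
  obtain ⟨v', D⟩ := H20.OrdForm.exists_data (M := M) hg₀ hG hnc P hJP hJ2 ζ₂ ζ₃ ζ₄ 1 ε (-1) hB
    ⟨h12, h13, h14, h23, h24, h34⟩ ⟨Or.inl rfl, hε, Or.inr rfl⟩
    ⟨by rw [(hval J hJ2).1]; simp, (hval J hJ2).2.1, by rw [(hval J hJ2).2.2]; simp⟩
  obtain ⟨hord, -⟩ := D.order_int hM
  simp only [Matrix.cons_val_zero, Matrix.cons_val_one, Matrix.cons_val_two, Matrix.tail_cons,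
    Matrix.head_cons, Matrix.cons_val] at hord
  rw [hCP4] at hord
  -- degrees
  have hdeg : (1 : ℤ) + charDegree (ζ₂ : G → ℂ) + ε * charDegree (ζ₃ : G → ℂ) - charDegree (ζ₄ : G → ℂ) = 0 := by
    have h1 := hrel 1 (by simp)
    rw [← H82.Deg.coe_charDegree', ← H82.Deg.coe_charDegree', ← H82.Deg.coe_charDegree'] at h1
    exact_mod_cast h1
  have hn2 : charDegree (ζ₂ : G → ℂ) ≠ 1 := fun h => h12 (H59.KleinN.eq_one_of_degree hna' ζ₂ h)
  have hn3 : charDegree (ζ₃ : G → ℂ) ≠ 1 := fun h => h13 (H59.KleinN.eq_one_of_degree hna' ζ₃ h)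
  have hn4 : charDegree (ζ₄ : G → ℂ) ≠ 1 := fun h => h14 (H59.KleinN.eq_one_of_degree hna' ζ₄ h)
  have hrep : ∀ ζ : IrrCharacter G, Odd (charDegree (ζ : G → ℂ)) →
      ∃ x y, x ≤ i ∧ y ≤ j ∧ charDegree (ζ : G → ℂ) = 3 ^ x * r ^ y := by
    intro ζ hodd
    have h1 : charDegree (ζ : G → ℂ) ∣ 4 * (3 ^ i * r ^ j) := by
      rw [← hG]; exact H20.Defect.charDegree_dvd_card ζ
    have h2 : charDegree (ζ : G → ℂ) ∣ 3 ^ i * r ^ j := by
      apply Nat.Coprime.dvd_of_dvd_mul_left _ h1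
      have h3 : Nat.Coprime (charDegree (ζ : G → ℂ)) (2 ^ 2) :=
        Nat.Coprime.pow_right 2 (Nat.coprime_two_right.2 hodd)
      exact h3
    obtain ⟨d₁, d₂, hd₁, hd₂, h3⟩ := (Nat.dvd_mul).1 h2
    obtain ⟨x, hx, hx'⟩ := (Nat.dvd_prime_pow Nat.prime_three).1 hd₁
    obtain ⟨y, hy, hy'⟩ := (Nat.dvd_prime_pow hr).1 hd₂
    exact ⟨x, y, hx, hy, by rw [← h3, hx', hy']⟩
  have hodd2 : Odd (charDegree (ζ₂ : G → ℂ)) := by
    obtain ⟨k, hk⟩ := hd2
    rw [Nat.odd_iff]; omega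
  have hodd3 : Odd (charDegree (ζ₃ : G → ℂ)) := by
    obtain ⟨k, hk⟩ := hd3
    rw [Nat.odd_iff]; rcases hε with h | h <;> rw [h] at hk <;> omega
  have hodd4 : Odd (charDegree (ζ₄ : G → ℂ)) := by
    obtain ⟨k, hk⟩ := hd4
    rw [Nat.odd_iff]; omega
  have hdvd : ∀ (ζ : IrrCharacter G) (s : ℕ), s.Prime → s ∣ charDegree (ζ : G → ℂ) → s = 2 ∨ s = 3 ∨ s = r :=
    fun ζ s hs h => hprime s hs (h.trans (H20.Defect.charDegree_dvd_card ζ))
  -- final step
  have hfin : ∀ X : IrrCharacter G, X ∈ principalBlock M G → charDegree (X : G → ℂ) = 3 →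
      (X : G → ℂ) J = -1 → Nonempty (G ≃* alternatingGroup (Fin 5)) := by
    intro X hXB hX3 hXJ
    have hPC := centralizer_eq_of_three hnp hM hg₀ hG hyp hk hcen hXB hX3 hXJ
    refine H59.KleinN.main hJ2 (V := (P : Subgroup G)) (le_of_eq hPC) hk ?_ ?_
    · rw [← hPC, Subgroup.relIndex_self]; norm_num
    · rw [← hPC, Subgroup.subgroupOf_self]; infer_instance
  have hB3 : ζ₃ ∈ principalBlock M G := by rw [hB]; right; right; left; rfl
  have hB4 : ζ₄ ∈ principalBlock M G := by rw [hB]; right; right; right; rfl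
  obtain ⟨-, hv3, hv4⟩ := hval J hJ2
  obtain ⟨x₂, y₂, hx₂, hy₂, e₂⟩ := hrep ζ₂ hodd2
  obtain ⟨x₃, y₃, hx₃, hy₃, e₃⟩ := hrep ζ₃ hodd3
  obtain ⟨x₄, y₄, hx₄, hy₄, e₄⟩ := hrep ζ₄ hodd4
  have p₂ := hdvd ζ₂
  have p₃ := hdvd ζ₃
  have p₄ := hdvd ζ₄
  have f₃ := hfin ζ₃ hB3
  have f₄ := hfin ζ₄ hB4
  clear hrep hdvd hfin
  set c : ℤ := (Nat.card (centralizer ({J} : Set G)) : ℤ) with hc
  have hcdvd : ∀ s : ℕ, s.Prime → (s : ℤ) ∣ c → s = 2 ∨ s = 3 ∨ s = r := by
    intro s hs h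
    apply hprime s hs
    rw [hc] at h
    exact (Int.natCast_dvd_natCast.1 h).trans (card_subgroup_dvd_card _)
  generalize charDegree (ζ₂ : G → ℂ) = z₂ at *
  generalize charDegree (ζ₃ : G → ℂ) = z₃ at *
  generalize charDegree (ζ₄ : G → ℂ) = z₄ at *
  push_cast at hord
  rcases hε with rfl | rfl
  · -- sign `+1`
    exfalso
    have hz2 : 5 ≤ z₂ := by
      obtain ⟨k, hk⟩ := hd2
      obtain ⟨k', hk'⟩ := hodd2
      omega
    have hz3 : 5 ≤ z₃ := by
      obtain ⟨k, hk⟩ := hd3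
      obtain ⟨k', hk'⟩ := hodd3
      omega
    have hz4 : z₄ = 1 + z₂ + z₃ := by omega
    have hm4 : m₄ = 1 + m₂ + m₃ := by omega
    have hm1 : m₄ = 1 := by
      by_contra hcon
      have h2 : 2 ≤ m₄ := by omega
      have h3 : 2 * 11 ≤ m₄ * z₄ := Nat.mul_le_mul h2 (by omega)
      omega
    have hle : z₄ ≤ 15 := by
      rw [hm1, one_mul] at hmle
      omega
    obtain ⟨k2, hk2⟩ := hd2
    obtain ⟨k3, hk3⟩ := hd3
    have hcase : (z₂ = 5 ∧ z₃ = 5 ∧ z₄ = 11) ∨ (z₂ = 5 ∧ z₃ = 9 ∧ z₄ = 15) ∨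
        (z₂ = 9 ∧ z₃ = 5 ∧ z₄ = 15) := by omega
    have h5 : r = 5 := by
      rcases hcase with ⟨h, -, -⟩ | ⟨h, -, -⟩ | ⟨-, h, -⟩
      · rcases p₂ 5 (by norm_num) (by rw [h]) with h' | h' | h' <;> omega
      · rcases p₂ 5 (by norm_num) (by rw [h]) with h' | h' | h' <;> omega
      · rcases p₃ 5 (by norm_num) (by rw [h]) with h' | h' | h' <;> omega
    have key : (7 : ℤ) ∣ c → False := by
      intro h
      rcases hcdvd 7 (by norm_num) h with h' | h' | h' <;> omega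
    rcases hcase with ⟨h2, h3, h4⟩ | ⟨h2, h3, h4⟩ | ⟨h2, h3, h4⟩
    · rcases p₄ 11 (by norm_num) (by rw [h4]) with h' | h' | h' <;> omega
    · apply key
      rw [h2, h3, h4] at hord
      push_cast at hord
      have h7 : (7 : ℤ) ∣ c ^ 3 * 5400 := ⟨(Nat.card G : ℤ) * 1920, by linarith⟩
      have hp7 : Prime (7 : ℤ) := Int.prime_iff_natAbs_prime.2 (by norm_num)
      rcases hp7.dvd_or_dvd h7 with h | h
      · exact hp7.dvd_of_dvd_pow h
      · norm_num at h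
    · apply key
      rw [h2, h3, h4] at hord
      push_cast at hord
      have h7 : (7 : ℤ) ∣ c ^ 3 * 5400 := ⟨(Nat.card G : ℤ) * 1920, by linarith⟩
      have hp7 : Prime (7 : ℤ) := Int.prime_iff_natAbs_prime.2 (by norm_num)
      rcases hp7.dvd_or_dvd h7 with h | h
      · exact hp7.dvd_of_dvd_pow h
      · norm_num at h
  · -- sign `-1`
    have q3 : z₃ % 4 = 3 := by
      obtain ⟨k, hk⟩ := hd3
      omega
    have q4 : z₄ % 4 = 3 := by
      obtain ⟨k, hk⟩ := hd4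
      omega
    have hz2 : z₂ + 1 = z₃ + z₄ := by omega
    have hm : m₃ + m₄ = 1 + m₂ := by omega
    have hsmall : z₃ ≤ 15 ∨ z₄ ≤ 15 := by
      rcases Nat.eq_zero_or_pos m₃ with h | h
      · right
        have h1 : 1 ≤ m₄ := by omega
        have h2 : 1 * z₄ ≤ m₄ * z₄ := Nat.mul_le_mul_right _ h1
        omega
      · left
        have h2 : 1 * z₃ ≤ m₃ * z₃ := Nat.mul_le_mul_right _ h
        omega
    have key : (5 : ℤ) ∣ c → r = 5 := by
      intro h
      rcases hcdvd 5 (by norm_num) h with h' | h' | h' <;> omega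
    have hp5 : Prime (5 : ℤ) := Int.prime_iff_natAbs_prime.2 (by norm_num)
    have last : (z₂ = 27 ∧ ((z₃ = 7 ∧ z₄ = 21) ∨ (z₃ = 21 ∧ z₄ = 7))) → r = 5 := by
      rintro ⟨h2, h | h⟩
      · apply key
        rw [h2, h.1, h.2] at hord
        push_cast at hord
        have h7 : (5 : ℤ) ∣ c ^ 3 * 31752 := ⟨(Nat.card G : ℤ) * 10752, by linarith⟩
        rcases hp5.dvd_or_dvd h7 with h | h
        · exact hp5.dvd_of_dvd_pow h
        · norm_num at h
      · apply key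
        rw [h2, h.1, h.2] at hord
        push_cast at hord
        have h7 : (5 : ℤ) ∣ c ^ 3 * 31752 := ⟨(Nat.card G : ℤ) * 10752, by linarith⟩
        rcases hp5.dvd_or_dvd h7 with h | h
        · exact hp5.dvd_of_dvd_pow h
        · norm_num at h
    have v3 : (ζ₃ : G → ℂ) J = -1 := by rw [hv3]; norm_num
    rcases hsmall with h | h
    · rcases arith_neg q3 q4 h hz2 e₄ e₂ hx₄ hx₂ hy₄ hy₂ hb p₃ with h' | h' | ⟨h1, h2, h3⟩
      · exact f₃ h' v3
      · exact f₄ h' hv4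
      · have := last ⟨by omega, Or.inl ⟨h1, h2⟩⟩
        omega
    · rcases arith_neg q4 q3 h (by omega) e₃ e₂ hx₃ hx₂ hy₃ hy₂ hb p₄ with h' | h' | ⟨h1, h2, h3⟩
      · exact f₄ h' hv4
      · exact f₃ h' v3
      · have := last ⟨by omega, Or.inr ⟨h2, h1⟩⟩
        omega

end H59.FourPQ
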