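import Cfsg.Agent.Lib.H21.NE15
import Cfsg.Agent.Lib.H54.E8k
import Cfsg.Agent.Lib.H58.AbSyl

/-!
# Simple groups of order 175560: Sylow 19-subgroups
-/

set_option autoImplicit false
set_option linter.unusedVariables false
set_option linter.unusedSectionVars false

namespace H59.J1

open Cfsg Subgroup H21.SylowTools

universe u

variable {G : Type u} [Group G] [Finite G] [IsSimpleGroup G]

theorem hnc (h : Nat.card G = 175560) : ¬ IsMulCommutative G :=
  not_comm_of_card_not_prime (by rw [h]; norm_num)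

theorem card_P [Fact (Nat.Prime 19)] (h : Nat.card G = 175560) (P : Sylow 19 G) :
    Nat.card (P : Subgroup G) = 19 := by
  have := card_sylow_eq_pow (a := 1) (m := 9240) (by rw [h]; norm_num) (by norm_num) P
  rw [this]; norm_num

/-- a proper subgroup containing a Sylow 19-subgroup normalises it -/
theorem le_norm [Fact (Nat.Prime 19)] (h : Nat.card G = 175560) (P : Sylow 19 G) {M : Subgroup G}
    (hPM : (P : Subgroup G) ≤ M) (hM : M ≠ ⊤) : M ≤ normalizer ((P : Subgroup G) : Set G) := by
  have h1 : Nat.card M ∣ 175560 := by rw [← h]; exact M.card_subgroup_dvd_card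
  have h2 : 19 ∣ Nat.card M := by
    rw [← card_P h P]; exact Subgroup.card_dvd_of_le hPM
  have h3 : Nat.card M ≠ 175560 := by
    intro h4
    apply hM
    apply Subgroup.eq_top_of_card_eq
    rw [h4, h]
  have h4 := H21.NE.O175560.main h1 h2 (fun h5 => absurd h5 h3) (P.subtype hPM)
  rw [Sylow.coe_subtype] at h4
  exact (Subgroup.normal_subgroupOf_iff_le_normalizer hPM).1 h4

theorem cen_ne_top (h : Nat.card G = 175560) {u : G} (hu : u ≠ 1) : centralizer ({u} : Set G) ≠ ⊤ := by
  intro h1
  apply hu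
  have h2 : u ∈ center G := by
    rw [mem_center_iff]
    intro g
    have : g ∈ centralizer ({u} : Set G) := by rw [h1]; trivial
    exact mem_centralizer_singleton_iff.1 this
  rw [H58.AbSyl.center_eq_bot (hnc h)] at h2
  exact mem_bot.1 h2

theorem norm_ne_top (h : Nat.card G = 175560) {p : ℕ} [Fact p.Prime] (hp : p ∣ 175560) (R : Sylow p G) :
    normalizer ((R : Subgroup G) : Set G) ≠ ⊤ :=
  normalizer_sylow_ne_top (hnc h) (by rw [h]; exact hp) R

/-- Sylow `r`-subgroups of prime order centralising `P` -/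
theorem modr [f19 : Fact (Nat.Prime 19)] (h : Nat.card G = 175560) (P : Sylow 19 G) {r : ℕ} [hr : Fact r.Prime]
    (hrd : r ∣ 175560) (hr1 : ∀ R : Sylow r G, Nat.card (R : Subgroup G) = r)
    (hc : r ∣ Nat.card (centralizer ((P : Subgroup G) : Set G))) :
    Nat.card (Sylow 19 G) ≡ 1 [MOD r] := by
  obtain ⟨⟨x, hxC⟩, hx⟩ := exists_prime_orderOf_dvd_card' r hc
  rw [Subgroup.orderOf_mk] at hx
  have h3 : IsPGroup r (zpowers x) := IsPGroup.of_card (n := 1) (by rw [Nat.card_zpowers, hx, pow_one])
  obtain ⟨R, hR⟩ := h3.exists_le_sylow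
  have h4 : zpowers x = (R : Subgroup G) :=
    Subgroup.eq_of_le_of_card_ge hR (by rw [Nat.card_zpowers, hx, hr1 R])
  have hPC : (P : Subgroup G) ≤ normalizer ((R : Subgroup G) : Set G) := by
    intro y hy
    apply Subgroup.centralizer_le_normalizer
    rw [← h4, mem_centralizer_iff]
    intro w hw
    obtain ⟨k, rfl⟩ := mem_zpowers_iff.1 hw
    have h5 : y * x = x * y := mem_centralizer_iff.1 hxC y hy
    exact ((show Commute y x from h5).symm.zpow_left k).eq
  have hRN := le_norm h P hPC (norm_ne_top h hrd R)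
  have hRM : (R : Subgroup G) ≤ normalizer ((P : Subgroup G) : Set G) := le_normalizer.trans hRN
  have h5 : Nat.card (Sylow r G) ≡ 1 [MOD r] := card_sylow_modEq_one r G
  have h6 : Nat.card (Sylow r (normalizer ((P : Subgroup G) : Set G))) ≡ 1 [MOD r] :=
    card_sylow_modEq_one r _
  rw [(R.subtype hRM).card_eq_index_normalizer] at h6
  have h6' : (normalizer (((R : Subgroup G).subgroupOf (normalizer ((P : Subgroup G) : Set G)) :
    Subgroup (normalizer ((P : Subgroup G) : Set G))) : Set (normalizer ((P : Subgroup G) : Set G)))).index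
      ≡ 1 [MOD r] := h6
  rw [← Subgroup.subgroupOf_normalizer_eq hRM] at h6'
  have h5' : (normalizer ((R : Subgroup G) : Set G)).index ≡ 1 [MOD r] := by
    have h9 := R.card_eq_index_normalizer
    rw [h9] at h5
    exact h5
  have h10 : (normalizer ((P : Subgroup G) : Set G)).index = Nat.card (Sylow 19 G) := P.card_eq_index_normalizer.symm
  rw [← Subgroup.relIndex_mul_index hRN, h10] at h5'
  have h7 : (normalizer ((R : Subgroup G) : Set G)).relIndex (normalizer ((P : Subgroup G) : Set G)) ≡ 1 [MOD r] := h6'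
  have h8 := (Nat.ModEq.mul_right (Nat.card (Sylow 19 G)) h7)
  rw [one_mul] at h8
  exact h8.symm.trans h5'

theorem card_odd (h : Nat.card G = 175560) {r m : ℕ} [hr : Fact r.Prime] (hm : r * m = 175560) (hrm : ¬ r ∣ m)
    (R : Sylow r G) : Nat.card (R : Subgroup G) = r := by
  have := card_sylow_eq_pow (a := 1) (m := m) (by rw [h, pow_one, hm]) hrm R
  rw [this, pow_one]

/-- the number of Sylow 19-subgroups -/
theorem n19 [f19 : Fact (Nat.Prime 19)] (h : Nat.card G = 175560) (P : Sylow 19 G)
    (hodd : ∀ u : G, u * u = 1 → u ≠ 1 → ¬ 19 ∣ Nat.card (centralizer ({u} : Set G))) :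
    Nat.card (Sylow 19 G) = 1540 ∧ Odd (Nat.card (centralizer ((P : Subgroup G) : Set G))) := by
  have hC : Odd (Nat.card (centralizer ((P : Subgroup G) : Set G))) := by
    rw [← Nat.not_even_iff_odd]
    intro he
    have f2 : Fact (Nat.Prime 2) := ⟨Nat.prime_two⟩
    obtain ⟨⟨u, huC⟩, hu⟩ := exists_prime_orderOf_dvd_card' 2 (even_iff_two_dvd.1 he)
    rw [Subgroup.orderOf_mk] at hu
    have hu2 : u * u = 1 := by rw [← pow_two, ← hu, pow_orderOf_eq_one]
    have hu1 : u ≠ 1 := by rintro rfl; rw [orderOf_one] at hu; norm_num at hu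
    apply hodd u hu2 hu1
    have hle : (P : Subgroup G) ≤ centralizer ({u} : Set G) := by
      intro x hx
      rw [mem_centralizer_singleton_iff]
      exact mem_centralizer_iff.1 huC x hx
    have := Subgroup.card_dvd_of_le hle
    rwa [card_P h P] at this
  refine ⟨?_, hC⟩
  have f5 : Fact (Nat.Prime 5) := ⟨by norm_num⟩
  have f11 : Fact (Nat.Prime 11) := ⟨by norm_num⟩
  obtain ⟨n, hn⟩ : ∃ n, Nat.card (Sylow 19 G) = n := ⟨_, rfl⟩
  have h1 : n ≡ 1 [MOD 19] := by rw [← hn]; exact card_sylow_modEq_one 19 G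
  have h2 : n ∣ 9240 := by
    rw [← hn]
    exact card_sylow_dvd_of_card (a := 1) (m := 9240) (by rw [h]; norm_num)
  have h3 : n ≠ 1 := by rw [← hn]; exact card_sylow_ne_one (hnc h) (by rw [h]; norm_num)
  have h4 : Nat.card (normalizer ((P : Subgroup G) : Set G)) * n = 175560 := by
    rw [← hn, ← h]; exact card_normalizer_mul_card_sylow P
  have h5 := card_centralizer_mul_relIndex (P : Subgroup G)
  have h6 : (centralizer ((P : Subgroup G) : Set G)).relIndex (normalizer ((P : Subgroup G) : Set G)) ∣ 18 := by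
    have hc : IsCyclic (P : Subgroup G) := isCyclic_of_prime_card (card_P h P)
    have h7 := relIndex_centralizer_dvd_card_mulAut (P : Subgroup G)
    rw [hc.card_mulAut, card_P h P, Nat.totient_prime f19.out] at h7
    exact h7
  obtain ⟨e, he⟩ : ∃ e, (centralizer ((P : Subgroup G) : Set G)).relIndex
    (normalizer ((P : Subgroup G) : Set G)) = e := ⟨_, rfl⟩
  obtain ⟨c, hc⟩ : ∃ c, Nat.card (centralizer ((P : Subgroup G) : Set G)) = c := ⟨_, rfl⟩
  have m5 : 5 ∣ c → n ≡ 1 [MOD 5] := fun hd => by
    rw [← hn]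
    exact modr h P (by norm_num) (card_odd h (m := 35112) (by norm_num) (by norm_num)) (by rw [hc]; exact hd)
  have m11 : 11 ∣ c → n ≡ 1 [MOD 11] := fun hd => by
    rw [← hn]
    exact modr h P (by norm_num) (card_odd h (m := 15960) (by norm_num) (by norm_num)) (by rw [hc]; exact hd)
  rw [he, hc] at h5
  rw [he] at h6
  rw [hc] at hC
  rw [← h5] at h4
  have key : ∀ n ∈ Nat.divisors 9240, n % 19 = 1 → n ≠ 1 → n = 20 ∨ n = 77 ∨ n = 210 ∨ n = 1540 := by
    decide +kernel
  have hcases := key n (Nat.mem_divisors.2 ⟨h2, by norm_num⟩) h1 h3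
  have he18 : e ≤ 18 := Nat.le_of_dvd (by norm_num) h6
  rw [hn]
  rcases hcases with rfl | rfl | rfl | rfl
  · exfalso
    have h7 : c * e = 8778 := by omega
    have h8 : 11 ∣ c * e := by rw [h7]; norm_num
    rcases (Nat.Prime.dvd_mul f11.out).1 h8 with h9 | h9
    · have := m11 h9
      norm_num [Nat.ModEq] at this
    · have := h9.trans h6
      norm_num at this
  · exfalso
    have h7 : c * e = 2280 := by omega
    have h8 : 5 ∣ c * e := by rw [h7]; norm_num
    rcases (Nat.Prime.dvd_mul f5.out).1 h8 with h9 | h9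
    · have := m5 h9
      norm_num [Nat.ModEq] at this
    · have := h9.trans h6
      norm_num at this
  · exfalso
    have h7 : c * e = 836 := by omega
    have h8 : 4 ∣ c * e := by rw [h7]; norm_num
    have h9 : Nat.Coprime 4 c := by
      have : Nat.Coprime (2 ^ 2) c := Nat.Coprime.pow_left 2 (Nat.coprime_two_left.2 hC)
      exact this
    have h10 := (h9.dvd_of_dvd_mul_left h8).trans h6
    norm_num at h10
  · rfl

end H59.J1
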