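import Cfsg.Agent.Lib.H59.J1a

/-!
# Simple groups of order 175560: the order of the centralizer of an involution
-/

set_option autoImplicit false
set_option linter.unusedVariables false
set_option linter.unusedSectionVars false
set_option linter.style.haveILetI false

namespace H59.J1

open Cfsg Subgroup H21.SylowTools

universe u

variable {G : Type u} [Group G] [Finite G] [IsSimpleGroup G]

/-- `19` does not divide the order of the centralizer of an involution -/
theorem not19 [f19 : Fact (Nat.Prime 19)] (h : Nat.card G = 175560)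
    (h8 : ∀ u : G, u * u = 1 → u ≠ 1 → 8 ∣ Nat.card (centralizer ({u} : Set G))) {u : G} (hu : u * u = 1)
    (hu1 : u ≠ 1) : ¬ 19 ∣ Nat.card (centralizer ({u} : Set G)) := by
  intro hd
  obtain ⟨⟨x, hxC⟩, hx⟩ := exists_prime_orderOf_dvd_card' 19 hd
  rw [Subgroup.orderOf_mk] at hx
  have h3 : IsPGroup 19 (zpowers x) := IsPGroup.of_card (n := 1) (by rw [Nat.card_zpowers, hx, pow_one])
  obtain ⟨P, hP⟩ := h3.exists_le_sylow
  have h4 : zpowers x = (P : Subgroup G) :=
    Subgroup.eq_of_le_of_card_ge hP (by rw [Nat.card_zpowers, hx, card_P h P])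
  have hPC : (P : Subgroup G) ≤ centralizer ({u} : Set G) := by
    rw [← h4, zpowers_le]; exact hxC
  have hle := le_norm h P hPC (cen_ne_top h hu1)
  have h9 : 8 ∣ Nat.card (normalizer ((P : Subgroup G) : Set G)) := (h8 u hu hu1).trans (Subgroup.card_dvd_of_le hle)
  have f5 : Fact (Nat.Prime 5) := ⟨by norm_num⟩
  obtain ⟨n, hn⟩ : ∃ n, Nat.card (Sylow 19 G) = n := ⟨_, rfl⟩
  have h1 : n ≡ 1 [MOD 19] := by rw [← hn]; exact card_sylow_modEq_one 19 G
  have h2 : n ∣ 9240 := by
    rw [← hn]
    exact card_sylow_dvd_of_card (a := 1) (m := 9240) (by rw [h]; norm_num)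
  have h3 : n ≠ 1 := by rw [← hn]; exact card_sylow_ne_one (hnc h) (by rw [h]; norm_num)
  have h4' : Nat.card (normalizer ((P : Subgroup G) : Set G)) * n = 175560 := by
    rw [← hn, ← h]; exact card_normalizer_mul_card_sylow P
  have h5 := card_centralizer_mul_relIndex (P : Subgroup G)
  have h6 : (centralizer ((P : Subgroup G) : Set G)).relIndex (normalizer ((P : Subgroup G) : Set G)) ∣ 18 := by
    have hc : IsCyclic (P : Subgroup G) := isCyclic_of_prime_card (card_P h P)
    have h7 := relIndex_centralizer_dvd_card_mulAut (P : Subgroup G)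
    rw [hc.card_mulAut, card_P h P, Nat.totient_prime f19.out] at h7
    exact h7
  have key : ∀ n ∈ Nat.divisors 9240, n % 19 = 1 → n ≠ 1 → n = 20 ∨ n = 77 ∨ n = 210 ∨ n = 1540 := by
    decide +kernel
  rcases key n (Nat.mem_divisors.2 ⟨h2, by norm_num⟩) h1 h3 with rfl | rfl | rfl | rfl
  · have h7 : Nat.card (normalizer ((P : Subgroup G) : Set G)) = 8778 := by omega
    rw [h7] at h9; norm_num at h9
  · have h7 : Nat.card (normalizer ((P : Subgroup G) : Set G)) = 2280 := by omega
    rw [h7] at h5
    have h8' : 5 ∣ Nat.card (centralizer ((P : Subgroup G) : Set G)) *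
      (centralizer ((P : Subgroup G) : Set G)).relIndex (normalizer ((P : Subgroup G) : Set G)) := by
      rw [h5]; norm_num
    rcases (Nat.Prime.dvd_mul f5.out).1 h8' with h10 | h10
    · have := modr h P (by norm_num) (card_odd h (m := 35112) (by norm_num) (by norm_num)) h10
      rw [hn] at this
      norm_num [Nat.ModEq] at this
    · have := h10.trans h6
      norm_num at this
  · have h7 : Nat.card (normalizer ((P : Subgroup G) : Set G)) = 836 := by omega
    rw [h7] at h9; norm_num at h9
  · have h7 : Nat.card (normalizer ((P : Subgroup G) : Set G)) = 114 := by omega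
    rw [h7] at h9; norm_num at h9

theorem zpow_eq [f19 : Fact (Nat.Prime 19)] (h : Nat.card G = 175560) (P : Sylow 19 G) {x : G}
    (hx : x ∈ (P : Subgroup G)) (hx1 : x ≠ 1) : zpowers x = (P : Subgroup G) := by
  apply Subgroup.eq_of_le_of_card_ge (zpowers_le.2 hx)
  rw [card_P h P, Nat.card_zpowers]
  have h1 : orderOf x ∣ 19 := by
    rw [← card_P h P]
    have := orderOf_dvd_natCard (⟨x, hx⟩ : (P : Subgroup G))
    rwa [Subgroup.orderOf_mk] at this
  rcases (Nat.dvd_prime f19.out).1 h1 with h2 | h2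
  · exact absurd (orderOf_eq_one_iff.1 h2) hx1
  · rw [h2]

/-- an involution of `N(P)` commutes with no element of `P` -/
theorem not_comm [f19 : Fact (Nat.Prime 19)] (h : Nat.card G = 175560) (P : Sylow 19 G)
    (hC : Odd (Nat.card (centralizer ((P : Subgroup G) : Set G)))) {u x : G} (hu : u * u = 1) (hu1 : u ≠ 1)
    (hx : x ∈ (P : Subgroup G)) (hx1 : x ≠ 1) : u * x ≠ x * u := by
  intro hc
  have h1 : u ∈ centralizer ((P : Subgroup G) : Set G) := by
    rw [← zpow_eq h P hx hx1, mem_centralizer_iff]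
    intro w hw
    obtain ⟨k, rfl⟩ := mem_zpowers_iff.1 hw
    exact ((show Commute x u from hc.symm).zpow_left k).eq
  have h2 : orderOf u ∣ Nat.card (centralizer ((P : Subgroup G) : Set G)) := by
    have := orderOf_dvd_natCard (⟨u, h1⟩ : centralizer ((P : Subgroup G) : Set G))
    rwa [Subgroup.orderOf_mk] at this
  have h3 : orderOf u = 2 := orderOf_eq_prime (by rw [pow_two]; exact hu) hu1
  rw [h3] at h2
  rw [← Nat.not_even_iff_odd] at hC
  exact hC (even_iff_two_dvd.2 h2)

theorem inverts [f19 : Fact (Nat.Prime 19)] (h : Nat.card G = 175560) (P : Sylow 19 G)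
    (hC : Odd (Nat.card (centralizer ((P : Subgroup G) : Set G)))) {u x : G} (hu : u * u = 1) (hu1 : u ≠ 1)
    (huN : u ∈ normalizer ((P : Subgroup G) : Set G)) (hx : x ∈ (P : Subgroup G)) : u * x * u = x⁻¹ := by
  have hui : u⁻¹ = u := inv_eq_of_mul_eq_one_right hu
  have h1 : u * x * u ∈ (P : Subgroup G) := by
    have := (mem_normalizer_iff.1 huN x).1 hx
    rwa [hui] at this
  have hcomm : ∀ a ∈ (P : Subgroup G), ∀ b ∈ (P : Subgroup G), a * b = b * a := by
    intro a ha b hb
    have hc : IsCyclic (P : Subgroup G) := isCyclic_of_prime_card (card_P h P)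
    letI := hc.commGroup
    exact congrArg Subtype.val (mul_comm (⟨a, ha⟩ : (P : Subgroup G)) ⟨b, hb⟩)
  set y := x * (u * x * u) with hy
  have hyP : y ∈ (P : Subgroup G) := mul_mem hx h1
  have hyu : u * y = y * u := by
    have e1 : u * y = (u * x * u) * x * u := by
      rw [hy]
      calc u * (x * (u * x * u)) = (u * x * u) * x * u := by group
        _ = _ := rfl
    rw [e1, hcomm _ h1 _ hx]
  by_contra hne
  apply not_comm h P hC hu hu1 hyP _ hyu
  intro h2
  apply hne
  exact (eq_inv_of_mul_eq_one_right h2)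

/-- counting pairs of involutions -/
theorem count [f19 : Fact (Nat.Prime 19)] (h : Nat.card G = 175560) (hn : Nat.card (Sylow 19 G) = 1540)
    (hC : ∀ P : Sylow 19 G, Odd (Nat.card (centralizer ((P : Subgroup G) : Set G)))) :
    526680 ≤ Nat.card {u : G // u * u = 1 ∧ u ≠ 1} ^ 2 := by
  classical
  letI : Fintype (Sylow 19 G) := Fintype.ofFinite _
  let I := {u : G // u * u = 1 ∧ u ≠ 1}
  let UP : Sylow 19 G → Type u := fun P => {u : G // u ∈ normalizer ((P : Subgroup G) : Set G) ∧ u * u = 1 ∧ u ≠ 1}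
  let XP : Sylow 19 G → Type u := fun P => {x : G // x ∈ (P : Subgroup G) ∧ x ≠ 1}
  have hXP : ∀ P, Nat.card (XP P) = 18 := by
    intro P
    have h1 : Nat.card (XP P) = Set.ncard (((P : Subgroup G) : Set G) \ {1}) :=
      Nat.card_congr (Equiv.refl _)
    rw [h1, Set.ncard_sdiff_singleton_of_mem (P : Subgroup G).one_mem]
    have : Set.ncard ((P : Subgroup G) : Set G) = 19 := card_P h P
    rw [this]
  have hUP : ∀ P, 19 ≤ Nat.card (UP P) := by
    intro P
    have f2 : Fact (Nat.Prime 2) := ⟨Nat.prime_two⟩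
    have h4 : Nat.card (normalizer ((P : Subgroup G) : Set G)) * 1540 = 175560 := by
      rw [← hn, ← h]; exact card_normalizer_mul_card_sylow P
    have h5 : Nat.card (normalizer ((P : Subgroup G) : Set G)) = 114 := by omega
    obtain ⟨⟨u, huN⟩, hu⟩ := exists_prime_orderOf_dvd_card' (G := normalizer ((P : Subgroup G) : Set G)) 2
      (by rw [h5]; norm_num)
    rw [Subgroup.orderOf_mk] at hu
    have hu2 : u * u = 1 := by rw [← pow_two, ← hu, pow_orderOf_eq_one]
    have hu1 : u ≠ 1 := by rintro rfl; rw [orderOf_one] at hu; norm_num at hu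
    let f : ↥(P : Subgroup G) → UP P := fun x => ⟨x * u * (x : G)⁻¹, by
      refine ⟨mul_mem (mul_mem (le_normalizer x.2) huN) (inv_mem (le_normalizer x.2)), ?_, ?_⟩
      · calc (x : G) * u * (x : G)⁻¹ * (x * u * (x : G)⁻¹) = x * (u * u) * (x : G)⁻¹ := by group
          _ = 1 := by rw [hu2]; group
      · intro h6
        apply hu1
        calc u = (x : G)⁻¹ * (x * u * (x : G)⁻¹) * x := by group
          _ = 1 := by rw [h6]; group⟩
    have hf : Function.Injective f := by
      intro x y hxy
      have h6 : (x : G) * u * (x : G)⁻¹ = y * u * (y : G)⁻¹ := congrArg Subtype.val hxy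
      by_contra hne
      have h7 : ((y : G)⁻¹ * x) ∈ (P : Subgroup G) := mul_mem (inv_mem y.2) x.2
      have h8 : (y : G)⁻¹ * x ≠ 1 := by
        intro h9
        apply hne
        apply Subtype.ext
        exact (inv_mul_eq_one.1 h9).symm
      apply not_comm h P (hC P) hu2 hu1 h7 h8
      calc u * ((y : G)⁻¹ * x) = (y : G)⁻¹ * (y * u * (y : G)⁻¹) * x := by group
        _ = (y : G)⁻¹ * (x * u * (x : G)⁻¹) * x := by rw [h6]
        _ = (y : G)⁻¹ * x * u := by group
    have h9 := Nat.card_le_card_of_injective f hf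
    rwa [card_P h P] at h9
  let D := Σ P : Sylow 19 G, UP P × XP P
  have hD : 526680 ≤ Nat.card D := by
    rw [Nat.card_sigma]
    calc 526680 = ∑ P : Sylow 19 G, 19 * 18 := by
          rw [Finset.sum_const, Finset.card_univ, ← Nat.card_eq_fintype_card, hn]; norm_num
      _ ≤ ∑ P : Sylow 19 G, Nat.card (UP P × XP P) := by
          apply Finset.sum_le_sum
          intro P _
          rw [Nat.card_prod, hXP P]
          exact Nat.mul_le_mul_right _ (hUP P)
  let F : D → I × I := fun d => (⟨d.2.1.1, d.2.1.2.2⟩, ⟨d.2.1.1 * d.2.2.1, by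
    obtain ⟨P, ⟨u, huN, hu2, hu1⟩, ⟨x, hx, hx1⟩⟩ := d
    have h1 := inverts h P (hC P) hu2 hu1 huN hx
    have hui : u⁻¹ = u := inv_eq_of_mul_eq_one_right hu2
    refine ⟨?_, ?_⟩
    · show u * x * (u * x) = 1
      calc u * x * (u * x) = (u * x * u) * x := by group
        _ = 1 := by rw [h1]; group
    · intro h2
      have h3 : x = u := by
        have h4 : u * x = 1 := h2
        rw [← hui]
        exact (eq_inv_of_mul_eq_one_right h4)
      apply not_comm h P (hC P) hu2 hu1 hx hx1
      rw [h3]⟩)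
  have hF : Function.Injective F := by
    rintro ⟨P, ⟨u, huN, hu2, hu1⟩, ⟨x, hx, hx1⟩⟩ ⟨P', ⟨u', huN', hu2', hu1'⟩, ⟨x', hx', hx1'⟩⟩ he
    have e1 : u = u' := congrArg (fun z : I × I => (z.1 : G)) he
    have e2 : u * x = u' * x' := congrArg (fun z : I × I => (z.2 : G)) he
    subst e1
    have e3 : x = x' := mul_left_cancel e2
    subst e3
    have e4 : P = P' := by
      apply Sylow.ext
      rw [← zpow_eq h P hx hx1, ← zpow_eq h P' hx' hx1]
    subst e4
    rfl
  have h1 := Nat.card_le_card_of_injective F hF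
  rw [Nat.card_prod] at h1
  rw [pow_two]
  exact hD.trans h1

end H59.J1
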