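import Cfsg.Agent.Lib.H59.J1b

/-!
# Simple groups of order 175560 with Sylow 2-subgroup of type `E_8`
-/

set_option autoImplicit false
set_option linter.unusedVariables false
set_option linter.unusedSectionVars false
set_option linter.style.haveILetI false

namespace H59.J1

open Cfsg Subgroup H21.SylowTools H54.E8 Pointwise

universe u

variable {G : Type u} [Group G] [Finite G]

theorem exists_conj {S : Sylow 2 G} (F : FD S) {t : G} (ht : t ∈ (S : Subgroup G)) (ht1 : t ≠ 1) {u : G}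
    (hu : u * u = 1) (hu1 : u ≠ 1) : ∃ g : G, g * t * g⁻¹ = u := by
  have f2 : Fact (Nat.Prime 2) := ⟨Nat.prime_two⟩
  have hp : IsPGroup 2 (zpowers u) := IsPGroup.of_card (n := 1) (by
    rw [Nat.card_zpowers, orderOf_eq_prime (by rw [pow_two]; exact hu) hu1, pow_one])
  obtain ⟨T, hT⟩ := hp.exists_le_sylow
  obtain ⟨g, rfl⟩ := MulAction.exists_smul_eq G S T
  have h1 : u ∈ ((g • S : Sylow 2 G) : Subgroup G) := hT (mem_zpowers u)
  have h2 : g⁻¹ * u * g ∈ (S : Subgroup G) := by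
    have h3 : u ∈ MulAut.conj g • (S : Subgroup G) := h1
    rw [Subgroup.mem_pointwise_smul_iff_inv_smul_mem, ← map_inv, MulAut.smul_def, MulAut.conj_apply,
      inv_inv] at h3
    exact h3
  have h3 : g⁻¹ * u * g ≠ 1 := by
    intro h4
    apply hu1
    calc u = g * (g⁻¹ * u * g) * g⁻¹ := by group
      _ = 1 := by rw [h4]; group
  have h4 : g⁻¹ * u * g ∈ orb (NN S) t := by
    rw [F.trans ht ht1]
    exact ⟨h2, h3⟩
  obtain ⟨n, -, hn⟩ := h4
  refine ⟨g * n, ?_⟩
  calc g * n * t * (g * n)⁻¹ = g * (n * t * n⁻¹) * g⁻¹ := by group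
    _ = u := by rw [hn]; group

theorem card_cen_conj (t g : G) : Nat.card (centralizer ({g * t * g⁻¹} : Set G)) =
    Nat.card (centralizer ({t} : Set G)) := by
  have : centralizer ({g * t * g⁻¹} : Set G) = (centralizer ({t} : Set G)).map (MulAut.conj g).toMonoidHom := by
    ext x
    rw [mem_centralizer_singleton_iff, Subgroup.mem_map]
    constructor
    · intro hx
      refine ⟨g⁻¹ * x * g, ?_, ?_⟩
      · rw [mem_centralizer_singleton_iff]
        calc g⁻¹ * x * g * t = g⁻¹ * (x * (g * t * g⁻¹)) * g := by group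
          _ = g⁻¹ * (g * t * g⁻¹ * x) * g := by rw [hx]
          _ = t * (g⁻¹ * x * g) := by group
      · show g * (g⁻¹ * x * g) * g⁻¹ = x
        group
    · rintro ⟨y, hy, rfl⟩
      rw [mem_centralizer_singleton_iff] at hy
      show g * y * g⁻¹ * (g * t * g⁻¹) = g * t * g⁻¹ * (g * y * g⁻¹)
      calc g * y * g⁻¹ * (g * t * g⁻¹) = g * (y * t) * g⁻¹ := by group
        _ = g * (t * y) * g⁻¹ := by rw [hy]
        _ = _ := by group
  rw [this, Subgroup.card_map_of_injective (MulAut.conj g).injective]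

theorem eight_dvd {S : Sylow 2 G} (F : FD S) {t : G} (ht : t ∈ (S : Subgroup G)) :
    8 ∣ Nat.card (centralizer ({t} : Set G)) := by
  have h1 : Nat.card (S : Subgroup G) = 8 := F.h8
  rw [← h1]
  exact Subgroup.card_dvd_of_le (F.S_le ht)

theorem card_inv {S : Sylow 2 G} (F : FD S) {t : G} (ht : t ∈ (S : Subgroup G)) (ht1 : t ≠ 1) :
    Nat.card {u : G // u * u = 1 ∧ u ≠ 1} = (centralizer ({t} : Set G)).index := by
  have h1 : orb (⊤ : Subgroup G) t = {u : G | u * u = 1 ∧ u ≠ 1} := by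
    ext u
    constructor
    · rintro ⟨n, -, rfl⟩
      refine ⟨?_, ?_⟩
      · calc n * t * n⁻¹ * (n * t * n⁻¹) = n * (t * t) * n⁻¹ := by group
          _ = 1 := by rw [F.h2 t ht]; group
      · intro h2
        apply ht1
        calc t = n⁻¹ * (n * t * n⁻¹) * n := by group
          _ = 1 := by rw [h2]; group
    · rintro ⟨hu, hu1⟩
      obtain ⟨g, hg⟩ := exists_conj F ht ht1 hu hu1
      exact ⟨g, trivial, hg⟩
  have h2 := orb_card (⊤ : Subgroup G) t
  rw [relIndex_top_right, h1] at h2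
  rw [← h2]
  exact Nat.card_coe_set_eq _

variable [IsSimpleGroup G]

/-- the possible orders of the centralizer of an involution -/
theorem card_C (h : Nat.card G = 175560) {S : Sylow 2 G} (F : FD S) {t : G}
    (ht : t ∈ (S : Subgroup G)) (ht1 : t ≠ 1) :
    Nat.card (Sylow 19 G) = 1540 ∧ ∃ m ∈ ({1, 3, 5, 7, 11, 15, 21} : Finset ℕ),
      Nat.card (centralizer ({t} : Set G)) = 8 * m := by
  have f19 : Fact (Nat.Prime 19) := ⟨by norm_num⟩
  have h8 : ∀ u : G, u * u = 1 → u ≠ 1 → 8 ∣ Nat.card (centralizer ({u} : Set G)) := by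
    intro u hu hu1
    obtain ⟨g, rfl⟩ := exists_conj F ht ht1 hu hu1
    rw [card_cen_conj]
    exact eight_dvd F ht
  have h19 := fun (u : G) (hu : u * u = 1) (hu1 : u ≠ 1) => not19 h h8 hu hu1
  obtain ⟨P0⟩ : Nonempty (Sylow 19 G) := inferInstance
  have hn := (n19 h P0 h19).1
  refine ⟨hn, ?_⟩
  have hC := fun P : Sylow 19 G => (n19 h P h19).2
  have h1 := count h hn hC
  rw [card_inv F ht ht1] at h1
  have h2 := (centralizer ({t} : Set G)).card_mul_index
  rw [h] at h2
  obtain ⟨m, hm⟩ := eight_dvd F ht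
  have h3 := h19 t (F.h2 t ht) ht1
  obtain ⟨i, hi⟩ : ∃ i, (centralizer ({t} : Set G)).index = i := ⟨_, rfl⟩
  rw [hi] at h1 h2
  rw [hm] at h2 h3
  refine ⟨m, ?_, hm⟩
  have h4 : 726 ≤ i := by
    by_contra hlt
    have h5 : i ≤ 725 := by omega
    have h6 : i ^ 2 ≤ 725 ^ 2 := Nat.pow_le_pow_left h5 2
    norm_num at h6
    omega
  have h5 : m ≤ 30 := by
    by_contra hlt
    have h6 : 31 ≤ m := by omega
    have h7 : 8 * 31 * 726 ≤ 8 * m * i := Nat.mul_le_mul (Nat.mul_le_mul_left _ h6) h4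
    rw [h2] at h7
    norm_num at h7
  have h6 : m ∣ 21945 := by
    refine ⟨i, ?_⟩
    have : 8 * (m * i) = 8 * 21945 := by rw [← mul_assoc, h2]
    omega
  have h7 : ¬ 19 ∣ m := fun h8 => h3 (h8.mul_left 8)
  have h8 : 0 < m := Nat.pos_of_dvd_of_pos h6 (by norm_num)
  interval_cases m <;> first | decide | (exfalso; revert h6; decide) | (exfalso; revert h7; decide)

end H59.J1
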