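import Cfsg.Agent.Lib.H59.J1c

/-!
# Elementary abelian Sylow 2-subgroups of order 8: two general lemmas
-/

set_option autoImplicit false
set_option linter.unusedVariables false
set_option linter.unusedSectionVars false
set_option linter.style.haveILetI false

namespace H59.J1

open Cfsg Subgroup H21.SylowTools H54.E8 Pointwise

universe u

variable {G : Type u} [Group G] [Finite G]

/-- an involution normalising a group of prime order centralises or inverts it -/
theorem cent_or_inv {r : ℕ} (hr : r.Prime) {R : Subgroup G} (hR : Nat.card R = r) {v : G} (hv : v * v = 1)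
    (hvN : v ∈ normalizer (R : Set G)) : (∀ x ∈ R, v * x = x * v) ∨ ∀ x ∈ R, v * x * v = x⁻¹ := by
  have f : Fact r.Prime := ⟨hr⟩
  have hvi : v⁻¹ = v := inv_eq_of_mul_eq_one_right hv
  have hcomm : ∀ a ∈ R, ∀ b ∈ R, a * b = b * a := by
    intro a ha b hb
    have hc : IsCyclic R := isCyclic_of_prime_card hR
    letI := hc.commGroup
    exact congrArg Subtype.val (mul_comm (⟨a, ha⟩ : R) ⟨b, hb⟩)
  have h1 : ∀ x ∈ R, v * x * v ∈ R := by
    intro x hx
    have := (mem_normalizer_iff.1 hvN x).1 hx
    rwa [hvi] at this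
  by_cases hall : ∀ x ∈ R, x * (v * x * v) = 1
  · right
    intro x hx
    exact eq_inv_of_mul_eq_one_right (hall x hx)
  · left
    push Not at hall
    obtain ⟨x, hx, hx1⟩ := hall
    set y := x * (v * x * v) with hy
    have hyR : y ∈ R := mul_mem hx (h1 x hx)
    have hyv : v * y = y * v := by
      have e1 : v * y = (v * x * v) * x * v := by
        rw [hy]; group
      rw [e1, hcomm _ (h1 x hx) _ hx]
    have hz : zpowers y = R := by
      apply Subgroup.eq_of_le_of_card_ge (zpowers_le.2 hyR)
      rw [hR, Nat.card_zpowers]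
      have h2 : orderOf y ∣ r := by
        rw [← hR]
        have := orderOf_dvd_natCard (⟨y, hyR⟩ : R)
        rwa [Subgroup.orderOf_mk] at this
      rcases (Nat.dvd_prime hr).1 h2 with h3 | h3
      · exact absurd (orderOf_eq_one_iff.1 h3) hx1
      · rw [h3]
    intro w hw
    rw [← hz] at hw
    obtain ⟨k, rfl⟩ := mem_zpowers_iff.1 hw
    exact ((show Commute y v from hyv.symm).zpow_left k).symm.eq

theorem card_four {S : Sylow 2 G} (F : FD S) {r : ℕ} (hr : r.Prime) {R : Subgroup G} (hR : Nat.card R = r)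
    (hSN : (S : Subgroup G) ≤ normalizer (R : Set G)) :
    Nat.card ((S : Subgroup G) ⊓ centralizer (R : Set G) : Subgroup G) = 4 ∨
      (S : Subgroup G) ≤ centralizer (R : Set G) := by
  by_cases hle : (S : Subgroup G) ≤ centralizer (R : Set G)
  · exact Or.inr hle
  left
  obtain ⟨w, hwS, hwC⟩ := Set.not_subset.1 hle
  set A : Subgroup G := (S : Subgroup G) ⊓ centralizer (R : Set G) with hA
  have hinv : ∀ v ∈ (S : Subgroup G), v ∉ centralizer (R : Set G) → ∀ x ∈ R, v * x * v = x⁻¹ := by
    intro v hv hvC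
    rcases cent_or_inv hr hR (F.h2 v hv) (hSN hv) with h1 | h1
    · exfalso
      apply hvC
      rw [mem_centralizer_iff]
      intro x hx
      exact (h1 x hx).symm
    · exact h1
  have hidx : (A.subgroupOf (S : Subgroup G)).index = 2 := by
    rw [Subgroup.index_eq_two_iff]
    refine ⟨⟨w, hwS⟩, fun b => ?_⟩
    have hmem : ∀ c : (S : Subgroup G), c ∈ A.subgroupOf (S : Subgroup G) ↔ (c : G) ∈ centralizer (R : Set G) := by
      intro c
      rw [Subgroup.mem_subgroupOf, hA]
      exact ⟨fun h => h.2, fun h => ⟨c.2, h⟩⟩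
    rw [hmem, hmem]
    by_cases hb : (b : G) ∈ centralizer (R : Set G)
    · right
      refine ⟨hb, ?_⟩
      intro h1
      apply hwC
      have : (w : G) = (b : G)⁻¹ * ((b : G) * w) := by group
      rw [SetLike.mem_coe, this]
      exact mul_mem (inv_mem hb) h1
    · left
      refine ⟨?_, hb⟩
      show (b : G) * w ∈ centralizer (R : Set G)
      rw [mem_centralizer_iff]
      intro x hx
      have e1 := hinv b b.2 hb
      have e2 := hinv w hwS hwC
      have hbi : (b : G)⁻¹ = b := inv_eq_of_mul_eq_one_right (F.h2 b b.2)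
      have hwi : w⁻¹ = w := inv_eq_of_mul_eq_one_right (F.h2 w hwS)
      have e3 : (b : G) * (w * x * w) * b = x := by
        rw [e2 x hx, e1 x⁻¹ (inv_mem hx), inv_inv]
      have hbw : (w * b : G) * (b * w) = 1 := by
        calc (w * b : G) * (b * w) = w * (b * b) * w := by group
          _ = 1 := by rw [F.h2 b b.2, mul_one, F.h2 w hwS]
      calc x * ((b : G) * w) = ((b : G) * (w * x * w) * b) * (b * w) := by rw [e3]
        _ = (b : G) * w * x * ((w * b : G) * (b * w)) := by group
        _ = (b : G) * w * x := by rw [hbw, mul_one]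
  have h1 := (A.subgroupOf (S : Subgroup G)).card_mul_index
  have h2 : Nat.card (A.subgroupOf (S : Subgroup G)) = Nat.card A :=
    Nat.card_congr (subgroupOfEquivOfLe inf_le_left).toEquiv
  have h3 : Nat.card (S : Subgroup G) = 8 := F.h8
  rw [h2, hidx, h3] at h1
  omega

/-- the partition argument -/
theorem part {S : Sylow 2 G} (F : FD S) {r : ℕ} (hr : r.Prime)
    (hex : ∀ s ∈ (S : Subgroup G), s ≠ 1 → ∃ R : Subgroup G, Nat.card R = r ∧ R ≤ centralizer ({s} : Set G) ∧
      centralizer ({s} : Set G) ≤ normalizer (R : Set G) ∧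
      ∀ R' : Subgroup G, Nat.card R' = r → R' ≤ centralizer ({s} : Set G) → R' = R) :
    ∃ R : Subgroup G, Nat.card R = r ∧ (S : Subgroup G) ≤ centralizer (R : Set G) := by
  classical
  by_contra hcon
  push Not at hcon
  let T := {s : G // s ∈ (S : Subgroup G) ∧ s ≠ 1}
  have hT : Nat.card T = 7 := by
    have h1 : Nat.card T = Set.ncard (((S : Subgroup G) : Set G) \ {1}) := Nat.card_congr (Equiv.refl _)
    rw [h1]; exact F.card_sdiff
  letI : Fintype T := Fintype.ofFinite T
  choose! f hf1 hf2 hf3 hf4 using hex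
  let g : T → Subgroup G := fun s => f s.1
  have key : ∀ s : T, (Finset.univ.filter (fun v : T => g v = g s)).card = 3 := by
    intro s
    obtain ⟨s, hs, hs1⟩ := s
    have hSN : (S : Subgroup G) ≤ normalizer (f s : Set G) := (F.S_le hs).trans (hf3 s hs hs1)
    have h4 : Nat.card ((S : Subgroup G) ⊓ centralizer (f s : Set G) : Subgroup G) = 4 := by
      rcases card_four F hr (hf1 s hs hs1) hSN with h | h
      · exact h
      · exact absurd h (hcon (f s) (hf1 s hs hs1))
    have h5 : Set.ncard (((((S : Subgroup G) ⊓ centralizer (f s : Set G) : Subgroup G)) : Set G) \ {1}) = 3 := by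
      rw [Set.ncard_sdiff_singleton_of_mem (Subgroup.one_mem _)]
      have : Set.ncard ((((S : Subgroup G) ⊓ centralizer (f s : Set G) : Subgroup G)) : Set G) = 4 := h4
      rw [this]
    rw [← h5, ← Set.ncard_coe_finset, ← Set.ncard_image_of_injective _ Subtype.val_injective]
    congr 1
    ext v
    constructor
    · rintro ⟨⟨v', hv, hv1⟩, hmem, rfl⟩
      have h6' : f v' = f s := (Finset.mem_filter.1 (Finset.mem_coe.1 hmem)).2
      refine ⟨⟨hv, ?_⟩, hv1⟩
      show v' ∈ centralizer (f s : Set G)
      rw [mem_centralizer_iff]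
      intro x hx
      rw [SetLike.mem_coe, ← h6'] at hx
      exact mem_centralizer_singleton_iff.1 (hf2 v' hv hv1 hx)
    · rintro ⟨⟨hv, hvC⟩, hv1⟩
      have hvC' : v ∈ centralizer (f s : Set G) := hvC
      refine ⟨⟨v, hv, hv1⟩, ?_, rfl⟩
      rw [Finset.mem_coe, Finset.mem_filter]
      refine ⟨Finset.mem_univ _, ?_⟩
      show f v = f s
      symm
      apply hf4 v hv hv1 _ (hf1 s hs hs1)
      intro x hx
      rw [mem_centralizer_singleton_iff]
      exact mem_centralizer_iff.1 hvC' x hx
  have h7 : Fintype.card T = 7 := by rw [← Nat.card_eq_fintype_card, hT]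
  have h8 := Finset.card_eq_sum_card_image g (Finset.univ : Finset T)
  rw [Finset.card_univ, h7] at h8
  have h9 : ∑ b ∈ Finset.univ.image g, (Finset.univ.filter (fun v : T => g v = b)).card =
      ∑ b ∈ Finset.univ.image g, 3 := by
    apply Finset.sum_congr rfl
    intro b hb
    obtain ⟨s, -, rfl⟩ := Finset.mem_image.1 hb
    exact key s
  rw [h9, Finset.sum_const, smul_eq_mul] at h8
  omega

/-- TI Sylow 2-subgroups of order 8 -/
theorem ti_mod {S : Sylow 2 G} (h8 : Nat.card (S : Subgroup G) = 8)
    (hTI : ∀ T : Sylow 2 G, ∀ s ∈ (S : Subgroup G), s ≠ 1 → s ∈ (T : Subgroup G) → T = S) :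
    Nat.card (Sylow 2 G) % 8 = 1 := by
  classical
  have f2 : Fact (Nat.Prime 2) := ⟨Nat.prime_two⟩
  have hfix : ∀ s ∈ (S : Subgroup G), ∀ T : Sylow 2 G, s • T = T → s ∈ (T : Subgroup G) := by
    intro s hs T hT
    have h1 : s ∈ normalizer ((T : Subgroup G) : Set G) := Sylow.smul_eq_iff_mem_normalizer.1 hT
    have h2 : IsPGroup 2 (zpowers s) := S.2.to_le (zpowers_le.2 hs)
    have h3 : IsPGroup 2 ((T : Subgroup G) ⊔ zpowers s : Subgroup G) :=
      T.2.to_sup_of_normal_left' h2 (zpowers_le.2 h1)
    have h4 : (T : Subgroup G) ⊔ zpowers s = T := T.3 h3 le_sup_left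
    rw [← h4]
    exact mem_sup_right (mem_zpowers s)
  let X := {T : Sylow 2 G // T ≠ S}
  have hSS : ∀ s : (S : Subgroup G), (s : G) • S = S := fun s =>
    Sylow.smul_eq_iff_mem_normalizer.2 (le_normalizer s.2)
  letI : MulAction (S : Subgroup G) X :=
    { smul := fun s T => ⟨(s : G) • T.1, fun h => T.2 (by
        have h1 : T.1 = (s : G)⁻¹ • ((s : G) • T.1) := by rw [inv_smul_smul]
        rw [h1, h, inv_smul_eq_iff, hSS s])⟩
      one_smul := fun T => Subtype.ext (one_smul G T.1)
      mul_smul := fun a b T => Subtype.ext (mul_smul (a : G) (b : G) T.1) }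
  have hfree : ∀ T : X, MulAction.stabilizer (S : Subgroup G) T = ⊥ := by
    intro T
    rw [eq_bot_iff]
    intro s hs
    have h1 : (s : G) • T.1 = T.1 := congrArg Subtype.val (MulAction.mem_stabilizer_iff.1 hs)
    rw [mem_bot]
    by_contra hne
    exact T.2 (hTI T.1 s s.2 (fun h => hne (Subtype.ext h)) (hfix s s.2 T.1 h1))
  have e := MulAction.selfEquivOrbitsQuotientProd hfree
  have h1 : Nat.card X = Nat.card (Quotient (MulAction.orbitRel (S : Subgroup G) X)) * 8 := by
    rw [Nat.card_congr e, Nat.card_prod, h8]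
  have h2 : Nat.card (Sylow 2 G) = Nat.card X + 1 := by
    have h3 : Set.ncard (Set.univ \ {S} : Set (Sylow 2 G)) = Nat.card (Sylow 2 G) - 1 := by
      rw [Set.ncard_sdiff_singleton_of_mem (Set.mem_univ _), Set.ncard_univ]
    have h4 : Nat.card X = Set.ncard (Set.univ \ {S} : Set (Sylow 2 G)) := by
      rw [← Nat.card_coe_set_eq]
      apply Nat.card_congr
      apply Equiv.subtypeEquivRight
      intro T
      simp
    have h5 : 0 < Nat.card (Sylow 2 G) := Nat.card_pos
    rw [h4, h3]
    omega
  rw [h2, h1]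
  omega

end H59.J1
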