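import Cfsg.Agent.Lib.H59.J1d

/-!
# The case `|N(S)/C(S)| = 7` is impossible for order 175560
-/

set_option autoImplicit false
set_option linter.unusedVariables false
set_option linter.unusedSectionVars false
set_option linter.style.haveILetI false

namespace H59.J1

open Cfsg Subgroup H21.SylowTools H54.E8 Pointwise

universe u

/-- unique subgroup of order `r` -/
theorem uniq {C : Type u} [Group C] [Finite C] (K : Subgroup C) [K.Normal] {r k : ℕ} (hr : r.Prime)
    (hr2 : r ≠ 2) (hidx : K.index = 8) (hK : Nat.card K = r * k) (hk : k < r) (hk0 : 0 < k) :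
    ∃ R : Subgroup C, R.Normal ∧ Nat.card R = r ∧ ∀ R' : Subgroup C, Nat.card R' = r → R' = R := by
  have f : Fact r.Prime := ⟨hr⟩
  have hrk : ¬ r ∣ k := fun h => absurd (Nat.le_of_dvd hk0 h) (by omega)
  have hn : Nat.card (Sylow r K) = 1 := by
    have h1 : Nat.card (Sylow r K) ∣ k := card_sylow_dvd_of_card (a := 1) (by rw [hK, pow_one])
    have h2 : Nat.card (Sylow r K) ≡ 1 [MOD r] := card_sylow_modEq_one r K
    have h3 := Nat.le_of_dvd hk0 h1
    have h4 : Nat.card (Sylow r K) % r = 1 % r := h2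
    rw [Nat.mod_eq_of_lt (by omega), Nat.mod_eq_of_lt hr.one_lt] at h4
    exact h4
  have hsub : Subsingleton (Sylow r K) := (Nat.card_eq_one_iff_unique.1 hn).1
  obtain ⟨P⟩ : Nonempty (Sylow r K) := inferInstance
  have hP : Nat.card (P : Subgroup K) = r := by
    have := card_sylow_eq_pow (a := 1) (m := k) (by rw [hK, pow_one]) hrk P
    rw [this, pow_one]
  have hcop : Nat.Coprime 8 r := by
    rw [show (8 : ℕ) = 2 ^ 3 by norm_num]
    exact Nat.Coprime.pow_left 3 ((Nat.coprime_primes Nat.prime_two hr).2 hr2.symm)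
  have huni : ∀ R' : Subgroup C, Nat.card R' = r → R' = (P : Subgroup K).map K.subtype := by
    intro R' hR'
    have hle : R' ≤ K := by
      intro x hx
      have h1 : x ^ 8 ∈ K := by rw [← hidx]; exact K.pow_index_mem x
      have h2 : x ^ r = 1 := by
        have := pow_card_eq_one' (x := (⟨x, hx⟩ : R'))
        rw [hR'] at this
        exact congrArg Subtype.val this
      rw [← QuotientGroup.eq_one_iff, ← orderOf_eq_one_iff]
      have h3 : orderOf (x : C ⧸ K) ∣ 8 := orderOf_dvd_of_pow_eq_one (by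
        rw [← QuotientGroup.mk_pow, QuotientGroup.eq_one_iff]; exact h1)
      have h4 : orderOf (x : C ⧸ K) ∣ r := orderOf_dvd_of_pow_eq_one (by
        rw [← QuotientGroup.mk_pow, h2, QuotientGroup.mk_one])
      exact Nat.eq_one_of_dvd_coprimes hcop h3 h4
    have hc : Nat.card (R'.subgroupOf K) = r := by
      rw [Nat.card_congr (subgroupOfEquivOfLe hle).toEquiv, hR']
    have h5 : IsPGroup r (R'.subgroupOf K) := IsPGroup.of_card (n := 1) (by rw [hc, pow_one])
    obtain ⟨Q, hQ⟩ := h5.exists_le_sylow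
    have hQP : Q = P := Subsingleton.elim _ _
    have h6 : R'.subgroupOf K = (P : Subgroup K) := by
      rw [← hQP]
      apply Subgroup.eq_of_le_of_card_ge hQ
      rw [hQP, hP, hc]
    rw [← h6, subgroupOf_map_subtype, inf_eq_left.2 hle]
  have hcard : Nat.card ((P : Subgroup K).map K.subtype) = r := by
    rw [Subgroup.card_map_of_injective K.subtype_injective, hP]
  refine ⟨(P : Subgroup K).map K.subtype, ⟨fun x hx g => ?_⟩, hcard, huni⟩
  have h7 := huni (((P : Subgroup K).map K.subtype).map (MulAut.conj g).toMonoidHom) (by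
    rw [Subgroup.card_map_of_injective (MulAut.conj g).injective, hcard])
  rw [← h7]
  exact ⟨x, hx, rfl⟩

variable {G : Type u} [Group G] [Finite G]

/-- normal 2-complement of the centralizer -/
theorem cplt {S : Sylow 2 G} (F : FD S) {t : G} (ht : t ∈ (S : Subgroup G))
    (h1 : NN S ⊓ centralizer ({t} : Set G) ≤ ZZ S) {m : ℕ}
    (hm : Nat.card (centralizer ({t} : Set G)) = 8 * m) :
    ∃ K : Subgroup (centralizer ({t} : Set G)), K.Normal ∧ K.index = 8 ∧ Nat.card K = m := by
  have f2 : Fact (Nat.Prime 2) := ⟨Nat.prime_two⟩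
  have hle := F.S_le ht
  set P : Sylow 2 (centralizer ({t} : Set G)) := S.subtype hle with hP
  have hmem : ∀ s : centralizer ({t} : Set G), s ∈ (P : Subgroup (centralizer ({t} : Set G))) ↔
      (s : G) ∈ (S : Subgroup G) := by
    intro s
    rw [hP, Sylow.coe_subtype, mem_subgroupOf]
  have hNC : normalizer ((P : Subgroup (centralizer ({t} : Set G))) : Set (centralizer ({t} : Set G))) ≤
      centralizer ((P : Subgroup (centralizer ({t} : Set G))) : Set (centralizer ({t} : Set G))) := by
    intro c hc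
    rw [mem_normalizer_iff] at hc
    have h6 : (c : G) ∈ NN S ⊓ centralizer ({t} : Set G) := by
      refine ⟨mem_normalizer_iff.2 ?_, c.2⟩
      intro x
      constructor
      · intro hx
        exact (hmem _).mp ((hc ⟨x, hle hx⟩).mp ((hmem _).mpr hx))
      · intro hx
        have h7 : (c : G) * x * (c : G)⁻¹ ∈ centralizer ({t} : Set G) := hle hx
        have h8 : x ∈ centralizer ({t} : Set G) := by
          have := mul_mem (mul_mem (inv_mem c.2) h7) c.2
          have e : (c : G)⁻¹ * ((c : G) * x * (c : G)⁻¹) * (c : G) = x := by group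
          rwa [e] at this
        exact (hmem _).mp ((hc ⟨x, h8⟩).mpr ((hmem _).mpr hx))
    have h9 := h1 h6
    rw [mem_centralizer_iff]
    intro x hx
    exact Subtype.ext (mem_centralizer_iff.1 h9 x ((hmem x).1 hx))
  have h2 := MonoidHom.ker_transferSylow_isComplement' P hNC
  have hPc : Nat.card (P : Subgroup (centralizer ({t} : Set G))) = 8 := by
    rw [hP, Sylow.coe_subtype, Nat.card_congr (Subgroup.subgroupOfEquivOfLe hle).toEquiv]
    exact F.h8
  have h3 := h2.card_mul_card
  rw [hPc, hm] at h3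
  have h4 := (MonoidHom.transferSylow P hNC).ker.card_mul_index
  rw [hm] at h4
  have h5 : Nat.card (MonoidHom.transferSylow P hNC).ker = m := by omega
  refine ⟨(MonoidHom.transferSylow P hNC).ker, inferInstance, ?_, h5⟩
  rw [h5] at h4
  have hm0 : 0 < m := by
    have : 0 < Nat.card (centralizer ({t} : Set G)) := Nat.card_pos
    omega
  apply Nat.eq_of_mul_eq_mul_left hm0
  rw [h4, mul_comm]

theorem uniqC {S : Sylow 2 G} (F : FD S) {t : G} (ht : t ∈ (S : Subgroup G))
    (h1 : NN S ⊓ centralizer ({t} : Set G) ≤ ZZ S) {r k : ℕ} (hr : r.Prime) (hr2 : r ≠ 2) (hk : k < r) (hk0 : 0 < k)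
    (hm : Nat.card (centralizer ({t} : Set G)) = 8 * (r * k)) :
    ∃ R : Subgroup G, Nat.card R = r ∧ R ≤ centralizer ({t} : Set G) ∧
      centralizer ({t} : Set G) ≤ normalizer (R : Set G) ∧
      ∀ R' : Subgroup G, Nat.card R' = r → R' ≤ centralizer ({t} : Set G) → R' = R := by
  obtain ⟨K, hKn, hKi, hKc⟩ := cplt F ht h1 hm
  obtain ⟨R, hRn, hRc, hRu⟩ := uniq K hr hr2 hKi hKc hk hk0
  refine ⟨R.map (centralizer ({t} : Set G)).subtype, ?_, ?_, ?_, ?_⟩
  · rw [Subgroup.card_map_of_injective (Subgroup.subtype_injective _), hRc]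
  · rintro x ⟨y, -, rfl⟩
    exact y.2
  · intro c hc
    rw [mem_normalizer_iff]
    intro x
    constructor
    · rintro ⟨y, hy, rfl⟩
      exact ⟨⟨c, hc⟩ * y * ⟨c, hc⟩⁻¹, hRn.conj_mem y hy _, rfl⟩
    · rintro ⟨y, hy, hyx⟩
      have hyx' : (y : G) = c * x * c⁻¹ := hyx
      refine ⟨⟨c, hc⟩⁻¹ * y * (⟨c, hc⟩⁻¹)⁻¹, hRn.conj_mem y hy _, ?_⟩
      show c⁻¹ * (y : G) * (c⁻¹)⁻¹ = x
      rw [hyx']; group
  · intro R' hR' hle
    have h3 := hRu (R'.subgroupOf (centralizer ({t} : Set G))) (by
      rw [Nat.card_congr (subgroupOfEquivOfLe hle).toEquiv, hR'])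
    rw [← h3, subgroupOf_map_subtype, inf_eq_left.2 hle]

end H59.J1
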