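import Cfsg.Agent.Lib.H59.J1e

/-!
# The case `|N(S)/C(S)| = 7` is impossible for order 175560 (2)
-/

set_option autoImplicit false
set_option linter.unusedVariables false
set_option linter.unusedSectionVars false
set_option linter.style.haveILetI false

namespace H59.J1

open Cfsg Subgroup H21.SylowTools H54.E8 Pointwise

universe u

variable {G : Type u} [Group G] [Finite G]

theorem no35 [IsSimpleGroup G] (h : Nat.card G = 175560) {S : Sylow 2 G} (F : FD S) {r : ℕ} (hr : r = 3 ∨ r = 5)
    {R : Subgroup G} (hR : Nat.card R = r) (hS : (S : Subgroup G) ≤ centralizer (R : Set G)) : False := by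
  have hrp : r.Prime := by rcases hr with rfl | rfl <;> norm_num
  have f : Fact r.Prime := ⟨hrp⟩
  have hp : IsPGroup r R := IsPGroup.of_card (n := 1) (by rw [hR, pow_one])
  obtain ⟨Q, hQ⟩ := hp.exists_le_sylow
  have hQc : Nat.card (Q : Subgroup G) = r := by
    rcases hr with rfl | rfl
    · exact card_odd h (m := 58520) (by norm_num) (by norm_num) Q
    · exact card_odd h (m := 35112) (by norm_num) (by norm_num) Q
  have hRQ : R = (Q : Subgroup G) := Subgroup.eq_of_le_of_card_ge hQ (by rw [hQc, hR])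
  rw [hRQ] at hS
  have hrd : r ∣ Nat.card G := by
    rw [h]; rcases hr with rfl | rfl <;> norm_num
  have hd : r ∣ Nat.card (normalizer ((Q : Subgroup G) : Set G)) := by
    have h1 := Subgroup.card_dvd_of_le (le_normalizer (H := (Q : Subgroup G)))
    rwa [hQc] at h1
  obtain ⟨l, hl⟩ := hd
  have h2 := (relIndex_dvd_of_prime_order Q hQc hl).1
  have h3 : Odd ((centralizer ((Q : Subgroup G) : Set G)).relIndex (normalizer ((Q : Subgroup G) : Set G))) :=
    FD.odd_rel hS (hS.trans (centralizer_le_normalizer _))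
  have h4 : (centralizer ((Q : Subgroup G) : Set G)).relIndex (normalizer ((Q : Subgroup G) : Set G)) = 1 := by
    set n := (centralizer ((Q : Subgroup G) : Set G)).relIndex (normalizer ((Q : Subgroup G) : Set G)) with hn
    obtain ⟨a, ha⟩ := h3
    have h5 : n ≤ r - 1 := Nat.le_of_dvd (by rcases hr with rfl | rfl <;> norm_num) h2
    rcases hr with rfl | rfl
    · have h6 : n ≤ 2 := h5
      omega
    · have h6 : n ≤ 4 := h5
      obtain ⟨b, hb⟩ := h2
      have : n = 1 ∨ n = 3 := by omega
      rcases this with h7 | h7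
      · exact h7
      · rw [h7] at hb; omega
  exact burnside_not_le (hnc h) hrd Q (relIndex_eq_one.1 h4)

theorem no7 (h : Nat.card G = 175560) {S : Sylow 2 G} (F : FD S) (h7 : (ZZ S).relIndex (NN S) = 7)
    {R : Subgroup G} (hR : Nat.card R = 7) (hS : (S : Subgroup G) ≤ centralizer (R : Set G)) : False := by
  have h1 : R ≤ ZZ S := by
    intro x hx
    rw [mem_centralizer_iff]
    intro y hy
    exact (mem_centralizer_iff.1 (hS hy) x hx).symm
  have h2 := Subgroup.card_dvd_of_le h1
  rw [hR] at h2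
  have h3 := card_centralizer_mul_relIndex (S : Subgroup G)
  have h7' : (centralizer ((S : Subgroup G) : Set G)).relIndex (normalizer ((S : Subgroup G) : Set G)) = 7 := h7
  rw [h7'] at h3
  have h4 := (normalizer ((S : Subgroup G) : Set G)).card_subgroup_dvd_card
  rw [h, ← h3] at h4
  obtain ⟨a, ha⟩ := h2
  have ha' : Nat.card (centralizer ((S : Subgroup G) : Set G)) = 7 * a := ha
  rw [ha'] at h4
  obtain ⟨b, hb⟩ := h4
  have : 175560 = 49 * (a * b) := by rw [hb]; ring
  omega

theorem ti {S : Sylow 2 G} (F : FD S)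
    (hc : ∀ s ∈ (S : Subgroup G), s ≠ 1 → Nat.card (centralizer ({s} : Set G)) = Nat.card (ZZ S)) :
    Nat.card (Sylow 2 G) % 8 = 1 := by
  have f2 : Fact (Nat.Prime 2) := ⟨Nat.prime_two⟩
  apply ti_mod (S := S) F.h8
  intro T s hs hs1 hsT
  have hle : ZZ S ≤ centralizer ({s} : Set G) := by
    intro x hx
    rw [mem_centralizer_singleton_iff]
    exact (mem_centralizer_iff.1 hx s hs).symm
  have heq : ZZ S = centralizer ({s} : Set G) := Subgroup.eq_of_le_of_card_ge hle (by rw [hc s hs hs1])
  have hTC : (T : Subgroup G) ≤ centralizer ({s} : Set G) := by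
    intro x hx
    rw [mem_centralizer_singleton_iff]
    obtain ⟨g, rfl⟩ := MulAction.exists_smul_eq G S T
    have hx' : x ∈ MulAut.conj g • (S : Subgroup G) := hx
    have hs' : s ∈ MulAut.conj g • (S : Subgroup G) := hsT
    rw [Subgroup.mem_pointwise_smul_iff_inv_smul_mem, ← map_inv, MulAut.smul_def, MulAut.conj_apply,
      inv_inv] at hx' hs'
    have h1 := F.comm _ hx' _ hs'
    calc x * s = g * (g⁻¹ * x * g * (g⁻¹ * s * g)) * g⁻¹ := by group
      _ = g * (g⁻¹ * s * g * (g⁻¹ * x * g)) * g⁻¹ := by rw [h1]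
      _ = s * x := by group
  rw [← heq] at hTC
  have h2 : (T : Subgroup G) ⊓ normalizer ((S : Subgroup G) : Set G) = (T : Subgroup G) ⊓ S :=
    IsPGroup.inf_normalizer_sylow T.2 S
  rw [inf_eq_left.2 (hTC.trans (centralizer_le_normalizer _))] at h2
  have h3 : (T : Subgroup G) ≤ S := by
    rw [h2]; exact inf_le_right
  exact Sylow.ext (T.3 S.2 h3).symm

theorem card_ZZ_dvd {S : Sylow 2 G} {t : G} (ht : t ∈ (S : Subgroup G)) :
    Nat.card (ZZ S) ∣ Nat.card (centralizer ({t} : Set G)) := by
  apply Subgroup.card_dvd_of_le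
  intro x hx
  rw [mem_centralizer_singleton_iff]
  exact (mem_centralizer_iff.1 hx t ht).symm

theorem case7 [IsSimpleGroup G] (h : Nat.card G = 175560) {S : Sylow 2 G} (F : FD S)
    (h7 : (ZZ S).relIndex (NN S) = 7) : False := by
  have h8 : Nat.card (S : Subgroup G) = 8 := F.h8
  obtain ⟨t, ht, ht1⟩ : ∃ t ∈ (S : Subgroup G), t ≠ 1 := by
    by_contra hcon
    push Not at hcon
    have : (S : Subgroup G) = ⊥ := by
      rw [Subgroup.eq_bot_iff_forall]; exact hcon
    rw [this, Subgroup.card_bot] at h8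
    omega
  have hNC : ∀ s ∈ (S : Subgroup G), s ≠ 1 → NN S ⊓ centralizer ({s} : Set G) ≤ ZZ S := by
    intro s hs hs1
    have h1 := F.rel_mul hs hs1
    rw [h7] at h1
    exact relIndex_eq_one.1 (by omega)
  have hcs : ∀ s ∈ (S : Subgroup G), s ≠ 1 → Nat.card (centralizer ({s} : Set G)) =
      Nat.card (centralizer ({t} : Set G)) := by
    intro s hs hs1
    obtain ⟨g, rfl⟩ := exists_conj F ht ht1 (F.h2 s hs) hs1
    exact card_cen_conj t g
  obtain ⟨-, m, hm, hmc⟩ := card_C h F ht ht1
  have hZ8 : 8 ∣ Nat.card (ZZ S) := by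
    rw [← h8]; exact Subgroup.card_dvd_of_le F.S_le_Z
  have hZd := card_ZZ_dvd ht
  have hN := card_centralizer_mul_relIndex (S : Subgroup G)
  have h7' : (centralizer ((S : Subgroup G) : Set G)).relIndex (normalizer ((S : Subgroup G) : Set G)) = 7 := h7
  rw [h7'] at hN
  have f2 : Fact (Nat.Prime 2) := ⟨Nat.prime_two⟩
  have hn := card_normalizer_mul_card_sylow S
  rw [← hN, h] at hn
  have hR : ∀ r k : ℕ, r.Prime → r ≠ 2 → k < r → 0 < k → m = r * k →
      ∃ R : Subgroup G, Nat.card R = r ∧ (S : Subgroup G) ≤ centralizer (R : Set G) := by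
    intro r k hr hr2 hk hk0 hmr
    apply part F hr
    intro s hs hs1
    exact uniqC F hs (hNC s hs hs1) hr hr2 hk hk0 (by rw [hcs s hs hs1, hmc, hmr])
  simp only [Finset.mem_insert, Finset.mem_singleton] at hm
  rcases hm with rfl | rfl | rfl | rfl | rfl | rfl | rfl
  · have h1 : Nat.card (ZZ S) = 8 := Nat.dvd_antisymm (by rw [hmc] at hZd; exact hZd) hZ8
    have h2 := ti F (fun s hs hs1 => by rw [hcs s hs hs1, hmc, h1])
    have h1' : Nat.card (centralizer ((S : Subgroup G) : Set G)) = 8 := h1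
    rw [h1'] at hn
    omega
  · obtain ⟨R, hRc, hRS⟩ := hR 3 1 (by norm_num) (by norm_num) (by norm_num) (by norm_num) (by norm_num)
    exact no35 h F (Or.inl rfl) hRc hRS
  · obtain ⟨R, hRc, hRS⟩ := hR 5 1 (by norm_num) (by norm_num) (by norm_num) (by norm_num) (by norm_num)
    exact no35 h F (Or.inr rfl) hRc hRS
  · obtain ⟨R, hRc, hRS⟩ := hR 7 1 (by norm_num) (by norm_num) (by norm_num) (by norm_num) (by norm_num)
    exact no7 h F h7 hRc hRS
  · obtain ⟨R, hRc, hRS⟩ := hR 11 1 (by norm_num) (by norm_num) (by norm_num) (by norm_num) (by norm_num)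
    have h11 : 11 ∣ Nat.card (ZZ S) := by
      rw [← hRc]
      apply Subgroup.card_dvd_of_le
      intro x hx
      rw [mem_centralizer_iff]
      intro y hy
      exact (mem_centralizer_iff.1 (hRS hy) x hx).symm
    have h88 : 88 ∣ Nat.card (ZZ S) := by
      have : Nat.Coprime 8 11 := by norm_num
      exact this.mul_dvd_of_dvd_of_dvd hZ8 h11
    have h1 : Nat.card (ZZ S) = 88 := Nat.dvd_antisymm (by rw [hmc] at hZd; exact hZd) h88
    have h2 := ti F (fun s hs hs1 => by rw [hcs s hs hs1, hmc, h1])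
    have h1' : Nat.card (centralizer ((S : Subgroup G) : Set G)) = 88 := h1
    rw [h1'] at hn
    omega
  · obtain ⟨R, hRc, hRS⟩ := hR 5 3 (by norm_num) (by norm_num) (by norm_num) (by norm_num) (by norm_num)
    exact no35 h F (Or.inr rfl) hRc hRS
  · obtain ⟨R, hRc, hRS⟩ := hR 7 3 (by norm_num) (by norm_num) (by norm_num) (by norm_num) (by norm_num)
    exact no7 h F h7 hRc hRS

end H59.J1
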