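import Cfsg.Agent.Lib.H59.J1f
import Cfsg.Agent.Lib.H4.Burnside
import Cfsg.Agent.Lib.H60.Ord60

/-!
# Order 175560, Sylow 2-subgroup `E_8`: the centralizer of an involution is `Z_2 × A_5`
-/

set_option autoImplicit false
set_option linter.unusedVariables false
set_option linter.unusedSectionVars false
set_option linter.style.haveILetI false

namespace H59.J1

open Cfsg Subgroup H21.SylowTools H54.E8 Pointwise

universe u

section C
variable {C : Type u} [Group C] [Finite C]

theorem exists_sigma' (S : Sylow 2 C) {t : C}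
    (hcomm : ∀ x ∈ (S : Subgroup C), ∀ y ∈ (S : Subgroup C), x * y = y * x)
    (h2 : ∀ s ∈ (S : Subgroup C), s * s = 1) (tS : t ∈ (S : Subgroup C)) (t1 : t ≠ 1) (tc : ∀ c, t * c = c * t) :
    ∃ σ : C →* ℂˣ, σ t = -1 ∧ ∀ c, σ c ^ 2 = 1 := by
  have f2 : Fact (Nat.Prime 2) := ⟨Nat.prime_two⟩
  letI : CommGroup (S : Subgroup C) :=
    { (inferInstance : Group (S : Subgroup C)) with mul_comm := fun a b => Subtype.ext (hcomm a a.2 b b.2) }
  have ht : (⟨t, tS⟩ : (S : Subgroup C)) ≠ 1 := fun e => t1 (congrArg Subtype.val e)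
  obtain ⟨φ, hφ⟩ := CommGroup.exists_apply_ne_one_of_hasEnoughRootsOfUnity (S : Subgroup C) ℂ ht
  have hsq : ∀ s : (S : Subgroup C), φ s ^ 2 = 1 := by
    intro s
    rw [← map_pow, pow_two]
    have : s * s = 1 := Subtype.ext (h2 s s.2)
    rw [this, map_one]
  let φ' : (S : Subgroup C) →* rootsOfUnity 2 ℂ := φ.codRestrict (rootsOfUnity 2 ℂ) fun s => by
    rw [mem_rootsOfUnity]; exact hsq s
  have t_odd : ∀ m : ℕ, Odd m → t ^ m = t := by
    rintro m ⟨k, rfl⟩
    rw [pow_succ, pow_mul, pow_two, h2 t tS, one_pow, one_mul]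
  refine ⟨(rootsOfUnity 2 ℂ).subtype.comp (MonoidHom.transfer φ'), ?_, ?_⟩
  · have hodd : Odd (S : Subgroup C).index := by
      rw [← Nat.not_even_iff_odd, even_iff_two_dvd]
      exact S.not_dvd_index
    have h1 := MonoidHom.transfer_eq_pow φ' t (by
      intro k g₀ _
      have : t ^ k * g₀ = g₀ * t ^ k := ((show Commute t g₀ from tc g₀).pow_left k).eq
      rw [mul_assoc, this, inv_mul_cancel_left])
    rw [MonoidHom.comp_apply, h1]
    have h2' : (⟨t ^ (S : Subgroup C).index, MonoidHom.transfer_eq_pow_aux t (by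
      intro k g₀ _
      have : t ^ k * g₀ = g₀ * t ^ k := ((show Commute t g₀ from tc g₀).pow_left k).eq
      rw [mul_assoc, this, inv_mul_cancel_left])⟩ : (S : Subgroup C)) = ⟨t, tS⟩ := Subtype.ext (t_odd _ hodd)
    rw [h2']
    show φ ⟨t, tS⟩ = -1
    have h3 := hsq ⟨t, tS⟩
    have h4 : ((φ ⟨t, tS⟩ : ℂ) - 1) * ((φ ⟨t, tS⟩ : ℂ) + 1) = 0 := by
      have := congrArg (fun u : ℂˣ => (u : ℂ)) h3
      push_cast at this
      linear_combination this
    rcases mul_eq_zero.mp h4 with e | e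
    · exact absurd (Units.ext (by push_cast; linear_combination e)) hφ
    · apply Units.ext; push_cast; linear_combination e
  · intro c
    have h1 := (MonoidHom.transfer φ' c).2
    rw [mem_rootsOfUnity] at h1
    exact h1

theorem sigma_cases (σ : C →* ℂˣ) (h2 : ∀ c, σ c ^ 2 = 1) (c : C) : σ c = 1 ∨ σ c = -1 := by
  have h3 := h2 c
  have h4 : ((σ c : ℂ) - 1) * ((σ c : ℂ) + 1) = 0 := by
    have := congrArg (fun u : ℂˣ => (u : ℂ)) h3
    push_cast at this
    linear_combination this
  rcases mul_eq_zero.mp h4 with e | e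
  · left; apply Units.ext; push_cast; linear_combination e
  · right; apply Units.ext; push_cast; linear_combination e

theorem ker_index (σ : C →* ℂˣ) (h2 : ∀ c, σ c ^ 2 = 1) {t : C} (ht : σ t = -1) : σ.ker.index = 2 := by
  rw [Subgroup.index_eq_two_iff]
  refine ⟨t, fun b => ?_⟩
  rw [MonoidHom.mem_ker, MonoidHom.mem_ker, map_mul, ht]
  rcases sigma_cases σ h2 b with h | h
  · right
    refine ⟨h, ?_⟩
    rw [h]
    intro h5
    simp at h5
  · left
    refine ⟨by rw [h]; simp, ?_⟩
    rw [h]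
    exact neg_ne

theorem sol84 (h : Nat.card C = 84) : Group.IsSolvable C := by
  have f7 : Fact (Nat.Prime 7) := ⟨by norm_num⟩
  have h1 : Nat.card (Sylow 7 C) ∣ 12 := card_sylow_dvd_of_card (a := 1) (by rw [h]; norm_num)
  have h2 : Nat.card (Sylow 7 C) ≡ 1 [MOD 7] := card_sylow_modEq_one 7 C
  have h3 : Nat.card (Sylow 7 C) = 1 := by
    have h4 : Nat.card (Sylow 7 C) ≤ 12 := Nat.le_of_dvd (by norm_num) h1
    have h5 : Nat.card (Sylow 7 C) % 7 = 1 := h2
    obtain ⟨a, ha⟩ := h1
    have : Nat.card (Sylow 7 C) = 1 ∨ Nat.card (Sylow 7 C) = 8 := by omega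
    rcases this with h6 | h6
    · exact h6
    · rw [h6] at ha; omega
  obtain ⟨P⟩ : Nonempty (Sylow 7 C) := inferInstance
  have hn : (P : Subgroup C).Normal := by
    have h8 := P.card_eq_index_normalizer
    rw [h3] at h8
    exact Subgroup.normalizer_eq_top_iff.1 (Subgroup.index_eq_one.1 h8.symm)
  have hP : Nat.card (P : Subgroup C) = 7 := by
    have := card_sylow_eq_pow (a := 1) (m := 12) (by rw [h]; norm_num) (by norm_num) P
    rw [this]; norm_num
  have hq : Nat.card (C ⧸ (P : Subgroup C)) = 12 := by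
    have := (P : Subgroup C).card_mul_index
    rw [hP, h] at this
    rw [← Subgroup.index_eq_card]; omega
  have s1 : Group.IsSolvable (P : Subgroup C) :=
    H4.Burnside.isSolvable_of_card_eq 7 2 (by norm_num) (by norm_num) 7 _ hP ⟨1, 0, by norm_num⟩
  have s2 : Group.IsSolvable (C ⧸ (P : Subgroup C)) :=
    H4.Burnside.isSolvable_of_card_eq 2 3 (by norm_num) (by norm_num) 12 _ hq ⟨2, 1, by norm_num⟩
  exact Group.isSolvable_of_ker_le_range (P : Subgroup C).subtype (QuotientGroup.mk' (P : Subgroup C)) (by simp)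

/-- structure from a sign character -/
theorem struct (σ : C →* ℂˣ) (h2 : ∀ c, σ c ^ 2 = 1) {t : C} (ht : σ t = -1) (t2 : t * t = 1)
    (tc : ∀ c, t * c = c * t) : Nonempty (Multiplicative (ZMod 2) × σ.ker ≃* C) := by
  have t1 : t ≠ 1 := by
    rintro rfl
    rw [map_one] at ht
    exact neg_ne ht.symm
  have ho : orderOf t = 2 := orderOf_eq_prime (by rw [pow_two]; exact t2) t1
  have hcyc : Nat.card (Multiplicative (ZMod 2)) = Nat.card (zpowers t) := by
    rw [Nat.card_zpowers, ho]
    simp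
  let e : Multiplicative (ZMod 2) ≃* zpowers t := mulEquivOfCyclicCardEq hcyc
  have hz : ∀ x ∈ zpowers t, ∀ c, x * c = c * x := by
    intro x hx c
    obtain ⟨k, rfl⟩ := mem_zpowers_iff.1 hx
    exact ((show Commute t c from tc c).zpow_left k).eq
  let f := MonoidHom.noncommCoprod ((zpowers t).subtype.comp e.toMonoidHom) σ.ker.subtype
    (fun m n => hz _ (e m).2 _)
  have hd : zpowers t ⊓ σ.ker = ⊥ := by
    rw [eq_bot_iff]
    rintro x ⟨hx, hxk⟩
    have h3 : x * x = 1 := by
      obtain ⟨k, rfl⟩ := mem_zpowers_iff.1 hx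
      rw [← (Commute.refl t).mul_zpow, t2, one_zpow]
    replace hxk : σ x = 1 := hxk
    have h4 : x = 1 ∨ x = t := by
      obtain ⟨k, rfl⟩ := mem_zpowers_iff.1 hx
      rcases Int.even_or_odd k with ⟨j, rfl⟩ | ⟨j, rfl⟩
      · left
        rw [zpow_add, ← (Commute.refl t).mul_zpow, t2, one_zpow]
      · right
        rw [zpow_add, zpow_mul, show (2 : ℤ) = ((2 : ℕ) : ℤ) from rfl, zpow_natCast, pow_two, t2, one_zpow,
          zpow_one, one_mul]
    rcases h4 with rfl | rfl
    · exact one_mem _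
    · rw [hxk] at ht
      exact absurd ht.symm neg_ne
  have hinj : Function.Injective f := by
    refine (MonoidHom.noncommCoprod_injective _ _ _).2 ⟨Subtype.val_injective.comp e.injective, Subtype.val_injective, ?_⟩
    have h5 : ((zpowers t).subtype.comp e.toMonoidHom).range = zpowers t := by
      rw [MonoidHom.range_comp, MonoidHom.range_eq_top.2 e.surjective, ← MonoidHom.range_eq_map,
        Subgroup.range_subtype]
    rw [h5, Subgroup.range_subtype, disjoint_iff]
    exact hd
  have hcard : Nat.card (Multiplicative (ZMod 2) × σ.ker) = Nat.card C := by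
    have h6 := σ.ker.card_mul_index
    rw [ker_index σ h2 ht] at h6
    rw [Nat.card_prod, ← h6, mul_comm]
    simp
  have hbij : Function.Bijective f := (Nat.bijective_iff_injective_and_card f).2 ⟨hinj, hcard⟩
  exact ⟨MulEquiv.ofBijective f hbij⟩

end C

variable {G : Type u} [Group G] [Finite G]

theorem case21 [IsSimpleGroup G] (h : Nat.card G = 175560) {S : Sylow 2 G} (F : FD S)
    (h7 : (ZZ S).relIndex (NN S) ≠ 7) {t : G} (ht : t ∈ (S : Subgroup G)) (ht1 : t ≠ 1) :
    Nonempty (centralizer ({t} : Set G) ≃* Multiplicative (ZMod 2) × alternatingGroup (Fin 5)) := by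
  have f2 : Fact (Nat.Prime 2) := ⟨Nat.prime_two⟩
  have hperf : _root_.commutator G = ⊤ := H58.AbSyl.commutator_eq_top (hnc h)
  have hns : ¬ Group.IsSolvable (Cn t) := fun hs => h7 (F.seven hperf ht ht1 hs)
  have hle := F.S_le ht
  obtain ⟨-, m, hm, hmc⟩ := card_C h F ht ht1
  have hmem : ∀ s : Cn t, s ∈ (((S.subtype hle : Sylow 2 (Cn t))) : Subgroup (Cn t)) ↔
      (s : G) ∈ (S : Subgroup G) := by
    intro s
    rw [Sylow.coe_subtype, mem_subgroupOf]
  obtain ⟨σ, hσt, hσ2⟩ := exists_sigma' (S.subtype hle) (t := tt t)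
    (fun x hx y hy => Subtype.ext (F.comm _ ((hmem x).1 hx) _ ((hmem y).1 hy)))
    (fun s hs => Subtype.ext (F.h2 _ ((hmem s).1 hs))) ((hmem _).2 ht)
    (fun e => ht1 (congrArg Subtype.val e)) (fun c => comm_tt c)
  obtain ⟨e⟩ := struct σ hσ2 hσt (Subtype.ext (F.h2 t ht)) (fun c => comm_tt c)
  have hk : Nat.card σ.ker = 4 * m := by
    have h6 := σ.ker.card_mul_index
    rw [ker_index σ hσ2 hσt] at h6
    have h6' : Nat.card σ.ker * 2 = Nat.card (centralizer ({t} : Set G)) := h6
    rw [hmc] at h6'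
    omega
  have hks : ¬ Group.IsSolvable σ.ker := by
    intro hs
    apply hns
    have h8 : Group.IsSolvable (Multiplicative (ZMod 2) × σ.ker) := inferInstance
    exact Group.isSolvable_of_surjective (f := e.toMonoidHom) e.surjective
  have hm15 : m = 15 := by
    by_contra h15
    apply hks
    simp only [Finset.mem_insert, Finset.mem_singleton] at hm
    rcases hm with rfl | rfl | rfl | rfl | rfl | rfl | rfl
    · exact H4.Burnside.isSolvable_of_card_eq 2 3 (by norm_num) (by norm_num) _ _ hk ⟨2, 0, by norm_num⟩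
    · exact H4.Burnside.isSolvable_of_card_eq 2 3 (by norm_num) (by norm_num) _ _ hk ⟨2, 1, by norm_num⟩
    · exact H4.Burnside.isSolvable_of_card_eq 2 5 (by norm_num) (by norm_num) _ _ hk ⟨2, 1, by norm_num⟩
    · exact H4.Burnside.isSolvable_of_card_eq 2 7 (by norm_num) (by norm_num) _ _ hk ⟨2, 1, by norm_num⟩
    · exact H4.Burnside.isSolvable_of_card_eq 2 11 (by norm_num) (by norm_num) _ _ hk ⟨2, 1, by norm_num⟩
    · exact absurd rfl h15
    · exact sol84 hk
  subst hm15
  have hsimp := H60.Ord60.isSimple_of_not_solvable hk hks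
  obtain ⟨e2⟩ := H60.Ord60.iso_alt5 hk
  exact ⟨e.symm.trans (MulEquiv.prodCongr (MulEquiv.refl _) e2)⟩

end H59.J1
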