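import Cfsg.Agent.Lib.H21.PBlock
import Cfsg.Agent.Lib.H78.Cong

set_option autoImplicit false
set_option linter.unusedSectionVars false

/-!
Groups with a self-centralizing Sylow subgroup of prime order: the principal block.
-/

namespace H59.PSelf

open Cfsg H18.CharBasic H18.CharOrtho H18.CharInd H21.PLat

universe u

variable {G : Type u} [Group G] {p : ℕ} [hp : Fact p.Prime] {x0 : G} {M : Ideal AlgInt}

theorem cent_eq [Finite G] (hx0 : orderOf x0 = p)
    (hC : Nat.card (Subgroup.centralizer ({x0} : Set G)) = p) :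
    Subgroup.centralizer ({x0} : Set G) = Subgroup.zpowers x0 := by
  symm
  apply Subgroup.eq_of_le_of_card_ge
  · rw [Subgroup.zpowers_le, Subgroup.mem_centralizer_singleton_iff]
  · rw [hC, Nat.card_zpowers, hx0]

theorem singular [Finite G] (hx0 : orderOf x0 = p) (hidx : ¬ p ∣ (Subgroup.zpowers x0).index)
    (hC : Nat.card (Subgroup.centralizer ({x0} : Set G)) = p) {y : G} (hy : p ∣ orderOf y) :
    ∃ k : ZMod p, k ≠ 0 ∧ IsConj (pw x0 k) y := by
  have hP : IsPGroup p (Subgroup.zpowers x0) :=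
    IsPGroup.of_card (n := 1) (by rw [card_zp hx0, pow_one])
  let P0 : Sylow p G := hP.toSylow hidx
  have hP0 : (P0 : Subgroup G) = Subgroup.zpowers x0 := rfl
  set z := y ^ (orderOf y / p) with hz
  have hzo : orderOf z = p := by
    rw [hz]
    exact orderOf_pow_orderOf_div (orderOf_pos y).ne' hy
  have hQ : IsPGroup p (Subgroup.zpowers z) :=
    IsPGroup.of_card (n := 1) (by rw [card_zp hzo, pow_one])
  obtain ⟨Q, hQ⟩ := hQ.exists_le_sylow
  obtain ⟨g, hg⟩ := MulAction.exists_smul_eq G Q P0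
  have hz1 : g * z * g⁻¹ ∈ Subgroup.zpowers x0 := by
    have h1 : z ∈ (Q : Subgroup G) := hQ (Subgroup.mem_zpowers z)
    have h2 : (g • Q : Sylow p G).toSubgroup = Subgroup.zpowers x0 := by rw [hg, hP0]
    rw [← h2]
    exact Subgroup.smul_mem_pointwise_smul z (MulAut.conj g) _ h1
  obtain ⟨l, hl⟩ := mem_zpowers_pw hx0 hz1
  have hl0 : l ≠ 0 := by
    intro h
    rw [h, pw_zero] at hl
    have h3 : z = 1 := by
      have : z = g⁻¹ * (g * z * g⁻¹) * g := by group
      rw [this, ← hl]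
      group
    rw [h3, orderOf_one] at hzo
    exact hp.out.one_lt.ne hzo
  have hy1 : g * y * g⁻¹ ∈ Subgroup.centralizer ({x0} : Set G) := by
    have h4 : g * y * g⁻¹ ∈ Subgroup.centralizer ({pw x0 l} : Set G) := by
      rw [Subgroup.mem_centralizer_singleton_iff, hl]
      have h5 : y * z = z * y := by rw [hz, ← pow_succ, ← pow_succ']
      calc g * y * g⁻¹ * (g * z * g⁻¹) = g * (y * z) * g⁻¹ := by group
        _ = g * (z * y) * g⁻¹ := by rw [h5]
        _ = g * z * g⁻¹ * (g * y * g⁻¹) := by group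
    rw [centralizer_pw hx0 hl0] at h4
    rw [← pw_one hx0, centralizer_pw hx0 one_ne_zero]
    exact h4
  rw [cent_eq hx0 hC] at hy1
  obtain ⟨k, hk⟩ := mem_zpowers_pw hx0 hy1
  refine ⟨k, ?_, ?_⟩
  · intro h
    rw [h, pw_zero] at hk
    have h3 : y = 1 := by
      have : y = g⁻¹ * (g * y * g⁻¹) * g := by group
      rw [this, ← hk]
      group
    rw [h3, orderOf_one] at hy
    exact hp.out.one_lt.ne' (Nat.dvd_one.1 hy)
  · rw [hk]
    exact (isConj_iff.2 ⟨g, rfl⟩ : IsConj y (g * y * g⁻¹)).symm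

theorem pw_order [Finite G] (hx0 : orderOf x0 = p) {k : ZMod p} (hk : k ≠ 0) :
    orderOf (pw x0 k) = p := by
  rw [← Nat.card_zpowers, zpowers_pw hx0 hk, Nat.card_zpowers, hx0]

theorem sum_one {ι : Type*} {_ : Fintype ι} {f : ι → ℂ} (i : ι) (h1 : f i = 1)
    (h2 : ∀ j, j ≠ i → f j = 0) : ∑ j, f j = 1 := by
  classical
  rw [Finset.sum_eq_single i (fun j _ hj => h2 j hj) (fun h => absurd (Finset.mem_univ _) h), h1]

theorem vanish_off [Fintype G] (hM : IsPModular p M) (hx0 : orderOf x0 = p)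
    (hidx : ¬ p ∣ (Subgroup.zpowers x0).index)
    (hC : Nat.card (Subgroup.centralizer ({x0} : Set G)) = p) {χ : IrrCharacter G}
    (hχ : χ ∉ principalBlock M G) {k : ZMod p} (hk : k ≠ 0) : (χ : G → ℂ) (pw x0 k) = 0 := by
  classical
  let _ := Fintype.ofFinite (IrrCharacter G)
  have h1 := gamma_row hM hx0 hidx hk (fun l => if l = k then 1 else 0)
  simp only [mul_ite, mul_one, mul_zero] at h1
  rw [Finset.sum_ite_eq' Finset.univ k, if_pos (Finset.mem_univ _)] at h1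
  have h2 : ∀ u : (psi hx0).range, (((u : (ZMod p)ˣ) : ZMod p) * k = k) ↔ u = 1 := by
    intro u
    constructor
    · intro h
      have h3 : ((u : (ZMod p)ˣ) : ZMod p) = 1 := by
        have := mul_right_cancel₀ hk (h.trans (one_mul k).symm)
        exact this
      ext
      rw [h3]
      rfl
    · rintro rfl
      simp
  replace h1 := h1.trans (congrArg (fun z : ℂ => (p : ℂ) * z)
    (sum_one (1 : (psi hx0).range) (if_pos ((h2 1).2 rfl)) (fun u hu => if_neg (fun h => hu ((h2 u).1 h)))))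
  rw [mul_one] at h1
  have h3 := column_orthogonality (pw x0 k) (pw x0 k)
  rw [if_pos (IsConj.refl _), centralizer_pw hx0 hk, ← centralizer_pw hx0 one_ne_zero, pw_one hx0,
    hC] at h3
  have h4 : ∑ χ : IrrCharacter G, (if χ ∈ principalBlock M G then 0 else
      (‖(χ : G → ℂ) (pw x0 k)‖ ^ 2 : ℝ)) = 0 := by
    have h5 : ((∑ χ : IrrCharacter G, (if χ ∈ principalBlock M G then 0 else
      (‖(χ : G → ℂ) (pw x0 k)‖ ^ 2 : ℝ)) : ℝ) : ℂ) = 0 := by
      rw [Complex.ofReal_sum]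
      have h6 : ∀ χ : IrrCharacter G, (((if χ ∈ principalBlock M G then 0 else
          (‖(χ : G → ℂ) (pw x0 k)‖ ^ 2 : ℝ)) : ℝ) : ℂ) =
          (χ : G → ℂ) (pw x0 k) * (starRingEnd ℂ) ((χ : G → ℂ) (pw x0 k)) -
          (if χ ∈ principalBlock M G then
          (χ : G → ℂ) (pw x0 k) * (starRingEnd ℂ) ((χ : G → ℂ) (pw x0 k)) else 0) := by
        intro χ
        rw [Complex.mul_conj, Complex.normSq_eq_norm_sq]
        split_ifs
        · rw [sub_self, Complex.ofReal_zero]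
        · rw [sub_zero]
      rw [Finset.sum_congr rfl (fun χ _ => h6 χ), Finset.sum_sub_distrib, h3, h1, sub_self]
    exact_mod_cast h5
  have h7 := (Finset.sum_eq_zero_iff_of_nonneg (fun χ _ => by
    split_ifs
    · exact le_refl _
    · positivity)).1 h4 χ (Finset.mem_univ _)
  rw [if_neg hχ] at h7
  exact norm_eq_zero.1 (pow_eq_zero_iff (two_ne_zero) |>.1 h7)

theorem coe_charDegree (χ : IrrCharacter G) : ((charDegree (χ : G → ℂ) : ℕ) : ℂ) = (χ : G → ℂ) 1 := by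
  obtain ⟨n, hn⟩ := exists_degree (isCharacter_of_isIrr χ.2)
  rw [charDegree, hn]
  simp

theorem dvd_degree [Finite G] (hx0 : orderOf x0 = p) {χ : IrrCharacter G}
    (h : ∀ k : ZMod p, k ≠ 0 → (χ : G → ℂ) (pw x0 k) = 0) : p ∣ charDegree (χ : G → ℂ) := by
  classical
  have : Fintype G := Fintype.ofFinite G
  have : Fintype (Subgroup.zpowers x0) := Fintype.ofFinite _
  obtain ⟨m, hm⟩ := inner_char_natCast
    (H18.CharBasic.isCharacter_restrict (Subgroup.zpowers x0) (isCharacter_of_isIrr χ.2))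
    (isCharacter_one (G := Subgroup.zpowers x0))
  rw [classInner, Nat.card_zpowers, hx0] at hm
  have h1 : ∑ g : Subgroup.zpowers x0, (χ : G → ℂ) g * (starRingEnd ℂ) 1 = (χ : G → ℂ) 1 := by
    rw [Finset.sum_eq_single 1]
    · simp
    · intro b _ hb
      obtain ⟨k, hk⟩ := mem_zpowers_pw hx0 b.2
      have hk0 : k ≠ 0 := by
        rintro rfl
        rw [pw_zero] at hk
        exact hb (Subtype.ext hk.symm)
      rw [← hk, h k hk0, zero_mul]
    · intro hcon
      exact absurd (Finset.mem_univ _) hcon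
  rw [h1, ← coe_charDegree] at hm
  have hp0 : (p : ℂ) ≠ 0 := by exact_mod_cast hp.out.ne_zero
  refine ⟨m, ?_⟩
  have h2 : ((charDegree (χ : G → ℂ) : ℕ) : ℂ) = p * m := by
    rw [← hm, ← mul_assoc, mul_inv_cancel₀ hp0, one_mul]
  exact_mod_cast h2

/-- the structure of the principal block for a self-centralizing `⟨x0⟩` of order `p` -/
theorem structure_self [Fintype G] [Fintype (IrrCharacter G)] (hM : IsPModular p M)
    (hx0 : orderOf x0 = p) (hidx : ¬ p ∣ (Subgroup.zpowers x0).index)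
    (hC : Nat.card (Subgroup.centralizer ({x0} : Set G)) = p) {e : ℕ}
    (he : Nat.card (psi hx0).range = e) :
    ∃ (a : IrrCharacter G → ℤ) (Y : Finset (IrrCharacter G)) (ε : ℤ),
      (ε = 1 ∨ ε = -1) ∧ (∀ χ, a χ = 0 ∨ a χ = 1 ∨ a χ = -1) ∧
      (∀ χ ∈ Y, a χ = 0) ∧ (∀ χ ∈ Y, χ ∈ principalBlock M G) ∧
      (∀ χ, a χ ≠ 0 → χ ∈ principalBlock M G) ∧
      (∀ χ ∈ principalBlock M G, a χ ≠ 0 ∨ χ ∈ Y) ∧
      e * Y.card = p - 1 ∧ ∑ χ, a χ * a χ = e ∧ a (triv G) = 1 ∧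
      (∀ χ, a χ ≠ 0 → ∀ y : G, p ∣ orderOf y → (χ : G → ℂ) y = a χ) ∧
      (∀ χ, a χ ≠ 0 → ∃ m : ℤ, (charDegree (χ : G → ℂ) : ℤ) = a χ + p * m) ∧
      (∀ χ ∈ Y, ∃ m : ℤ, (charDegree (χ : G → ℂ) : ℤ) = ε * e + p * m) ∧
      (∀ χ ∈ Y, ∀ y : G, ¬ p ∣ orderOf y → (ε : ℂ) * (χ : G → ℂ) y =
        ∑ ψ, (a ψ : ℂ) * (ψ : G → ℂ) y) ∧
      (∀ χ, a χ = 0 → χ ∉ Y → (∀ y : G, p ∣ orderOf y → (χ : G → ℂ) y = 0) ∧
        p ∣ charDegree (χ : G → ℂ)) := by
  obtain ⟨a, Y, ε, h1, h2, h3, h4, h5, h6, h7, h8, h9, h10, h11, h12⟩ :=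
    structure_thm hM hx0 hidx he
  refine ⟨a, Y, ε, h1, h2, fun χ hχ => (h4 χ hχ).2, fun χ hχ => (h4 χ hχ).1, ?_, h5, h6, h7, h8, ?_,
    h10, h11, h12, ?_⟩
  · intro χ hχ
    by_contra hcon
    exact hχ (h3 χ hcon)
  · intro χ hχ y hy
    obtain ⟨k, hk, hky⟩ := singular hx0 hidx hC hy
    rw [← classFunction_isConj (isClassFunction_of_isIrr χ.2) hky]
    exact h9 χ hχ k hk
  · intro χ hχ hχY
    have hB : χ ∉ principalBlock M G := by
      intro hcon
      rcases h5 χ hcon with h | h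
      · exact h hχ
      · exact hχY h
    have hv : ∀ k : ZMod p, k ≠ 0 → (χ : G → ℂ) (pw x0 k) = 0 := fun k hk =>
      vanish_off hM hx0 hidx hC hB hk
    refine ⟨?_, dvd_degree hx0 hv⟩
    intro y hy
    obtain ⟨k, hk, hky⟩ := singular hx0 hidx hC hy
    rw [← classFunction_isConj (isClassFunction_of_isIrr χ.2) hky]
    exact hv k hk

end H59.PSelf
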