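import Cfsg.Agent.Lib.H59.PSelf
import Cfsg.Agent.Lib.H59.SymAlt

set_option autoImplicit false
set_option linter.unusedSectionVars false

/-!
Groups with a self-centralizing Sylow subgroup of prime order whose normalizer has order `2p`.
-/

namespace H59.PTwo

open Cfsg H18.CharBasic H18.CharOrtho H18.CharInd H21.PLat H59.PSelf

universe u

variable {G : Type u} [Group G]

/-- the data of the principal block -/
structure Data (G : Type u) [Group G] (p : ℕ) (χ : IrrCharacter G) (Y : Finset (IrrCharacter G))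
    (δ ε : ℤ) : Prop where
  hδ : δ = 1 ∨ δ = -1
  hε : ε = 1 ∨ ε = -1
  χ_ne : χ ≠ triv G
  triv_nmem : triv G ∉ Y
  χ_nmem : χ ∉ Y
  card : 2 * Y.card = p - 1
  sing : ∀ y : G, p ∣ orderOf y → (χ : G → ℂ) y = δ
  deg : ∃ m : ℤ, (charDegree (χ : G → ℂ) : ℤ) = δ + p * m
  reg : ∀ θ ∈ Y, ∀ y : G, ¬ p ∣ orderOf y → (ε : ℂ) * (θ : G → ℂ) y = 1 + δ * (χ : G → ℂ) y
  off : ∀ ψ : IrrCharacter G, ψ ≠ triv G → ψ ≠ χ → ψ ∉ Y → (∀ y : G, p ∣ orderOf y →
    (ψ : G → ℂ) y = 0) ∧ p ∣ charDegree (ψ : G → ℂ)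

theorem triv_apply (g : G) : ((triv G : IrrCharacter G) : G → ℂ) g = 1 := rfl

theorem exists_data {p : ℕ} [hp : Fact p.Prime] {x0 : G} {M : Ideal AlgInt} [Fintype G]
    (hM : IsPModular p M) (hx0 : orderOf x0 = p) (hidx : ¬ p ∣ (Subgroup.zpowers x0).index)
    (hC : Nat.card (Subgroup.centralizer ({x0} : Set G)) = p)
    (he : Nat.card (psi hx0).range = 2) :
    ∃ (χ : IrrCharacter G) (Y : Finset (IrrCharacter G)) (δ ε : ℤ), Data G p χ Y δ ε := by
  classical
  let _ := Fintype.ofFinite (IrrCharacter G)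
  obtain ⟨a, Y, ε, hε, h1, h2, h3, h4, h5, h6, h7, h8, h9, h10, h11, h12, h13⟩ :=
    structure_self hM hx0 hidx hC he
  rw [← Finset.add_sum_erase _ _ (Finset.mem_univ (triv G)), h8] at h7
  have h7' : ∑ χ ∈ Finset.univ.erase (triv G), a χ * a χ = 1 := by
    push_cast at h7
    linarith
  have hsq : ∀ χ, a χ ≠ 0 → a χ * a χ = 1 := by
    intro χ hχ
    rcases h1 χ with h | h | h
    · exact absurd h hχ
    · rw [h]; norm_num
    · rw [h]; norm_num
  have hne : ∃ χ ∈ Finset.univ.erase (triv G), a χ ≠ 0 := by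
    by_contra hcon
    push Not at hcon
    rw [Finset.sum_eq_zero (fun χ hχ => by rw [hcon χ hχ, zero_mul])] at h7'
    exact zero_ne_one h7'
  obtain ⟨χ, hχ, hχ0⟩ := hne
  have hχt := Finset.ne_of_mem_erase hχ
  rw [← Finset.add_sum_erase _ _ hχ, hsq χ hχ0] at h7'
  have h7'' : ∑ ψ ∈ (Finset.univ.erase (triv G)).erase χ, a ψ * a ψ = 0 := by linarith
  have hz : ∀ ψ, ψ ≠ triv G → ψ ≠ χ → a ψ = 0 := by
    intro ψ hψ1 hψ2
    have := (Finset.sum_eq_zero_iff_of_nonneg (fun ψ _ => mul_self_nonneg (a ψ))).1 h7'' ψ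
      (Finset.mem_erase.2 ⟨hψ2, Finset.mem_erase.2 ⟨hψ1, Finset.mem_univ _⟩⟩)
    exact mul_self_eq_zero.1 this
  refine ⟨χ, Y, a χ, ε, ?_, hε, hχt, ?_, ?_, h6, ?_, h10 χ hχ0, ?_, ?_⟩
  · exact (h1 χ).resolve_left hχ0
  · intro h
    have := h2 _ h
    rw [h8] at this
    exact one_ne_zero this
  · intro h
    exact hχ0 (h2 _ h)
  · intro y hy
    exact h9 χ hχ0 y hy
  · intro θ hθ y hy
    rw [h12 θ hθ y hy, ← Finset.add_sum_erase _ _ (Finset.mem_univ (triv G)),
      ← Finset.add_sum_erase _ _ hχ, Finset.sum_eq_zero, h8, add_zero]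
    · rw [triv_apply]
      push_cast
      ring
    · intro ψ hψ
      rw [Finset.mem_erase, Finset.mem_erase] at hψ
      rw [hz ψ hψ.2.1 hψ.1]
      push_cast
      ring
  · intro ψ h14 h15 h16
    exact h13 ψ (hz ψ h14 h15) h16

variable {p : ℕ} {χ : IrrCharacter G} {Y : Finset (IrrCharacter G)} {δ ε : ℤ}

theorem Data.δδ (D : Data G p χ Y δ ε) : δ * δ = 1 := by
  rcases D.hδ with h | h <;> rw [h] <;> norm_num

theorem Data.εε (D : Data G p χ Y δ ε) : ε * ε = 1 := by
  rcases D.hε with h | h <;> rw [h] <;> norm_num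

/-- inner product with an exceptional character -/
theorem Data.inner_exc [Fintype G] (D : Data G p χ Y δ ε) {α : G → ℂ} {c : ℂ}
    (hα : ∀ y : G, p ∣ orderOf y → α y = c) {θ : IrrCharacter G} (hθ : θ ∈ Y) :
    (ε : ℂ) * classInner α (θ : G → ℂ) =
      classInner α (triv G : G → ℂ) + δ * classInner α (χ : G → ℂ) - c := by
  have h1 : classInner α ((ε : ℂ) • (θ : G → ℂ) - ((triv G : G → ℂ) + (δ : ℂ) • (χ : G → ℂ))) =
      c * classInner (triv G : G → ℂ)
        ((ε : ℂ) • (θ : G → ℂ) - ((triv G : G → ℂ) + (δ : ℂ) • (χ : G → ℂ))) := by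
    have h3 : ∀ y : G, α y * (starRingEnd ℂ)
        (((ε : ℂ) • (θ : G → ℂ) - ((triv G : G → ℂ) + (δ : ℂ) • (χ : G → ℂ))) y) =
        c * ((triv G : G → ℂ) y * (starRingEnd ℂ)
        (((ε : ℂ) • (θ : G → ℂ) - ((triv G : G → ℂ) + (δ : ℂ) • (χ : G → ℂ))) y)) := by
      intro y
      by_cases hy : p ∣ orderOf y
      · rw [hα y hy, triv_apply, one_mul]
      · have h2 : ((ε : ℂ) • (θ : G → ℂ) - ((triv G : G → ℂ) + (δ : ℂ) • (χ : G → ℂ))) y = 0 := by
          simp only [Pi.sub_apply, Pi.smul_apply, Pi.add_apply, smul_eq_mul]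
          rw [D.reg θ hθ y hy, sub_self]
        rw [h2, map_zero, mul_zero, mul_zero, mul_zero]
    rw [classInner, classInner, Finset.sum_congr rfl (fun y _ => h3 y), ← Finset.mul_sum]
    ring
  have hθt : (triv G : G → ℂ) ≠ (θ : G → ℂ) := by
    intro h
    exact D.triv_nmem (by rwa [Subtype.ext h])
  have hχt : (triv G : G → ℂ) ≠ (χ : G → ℂ) := by
    intro h
    exact D.χ_ne (Subtype.ext h.symm)
  rw [H18.CharOrtho.inner_sub_right, H18.CharOrtho.inner_add_right, H18.CharOrtho.inner_smul_right,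
    H18.CharOrtho.inner_smul_right, H18.CharOrtho.inner_sub_right, H18.CharOrtho.inner_add_right,
    H18.CharOrtho.inner_smul_right, H18.CharOrtho.inner_smul_right, inner_irr_ne (triv G).2 θ.2 hθt,
    inner_irr_ne (triv G).2 χ.2 hχt, inner_irr_self (triv G).2, map_intCast, map_intCast] at h1
  linear_combination h1

/-- degree of the exceptional characters -/
theorem Data.deg_exc (D : Data G p χ Y δ ε) (hp : 1 < p) {θ : IrrCharacter G} (hθ : θ ∈ Y) :
    ε * (charDegree (θ : G → ℂ) : ℤ) = 1 + δ * charDegree (χ : G → ℂ) := by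
  have h1 := D.reg θ hθ 1 (by rw [orderOf_one]; exact fun h => hp.ne' (Nat.dvd_one.1 h))
  rw [← coe_charDegree, ← coe_charDegree] at h1
  exact_mod_cast h1

/-- splitting a sum over the irreducible characters -/
theorem Data.sum_split [Fintype (IrrCharacter G)] [DecidableEq (IrrCharacter G)]
    (D : Data G p χ Y δ ε) {R : Type*} [AddCommMonoid R] (f : IrrCharacter G → R) :
    ∑ ψ, f ψ = f (triv G) + f χ + ∑ ψ ∈ Y, f ψ +
      ∑ ψ ∈ Finset.univ \ insert (triv G) (insert χ Y), f ψ := by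
  rw [← Finset.sum_sdiff (Finset.subset_univ (insert (triv G) (insert χ Y))), add_comm,
    Finset.sum_insert, Finset.sum_insert D.χ_nmem, ← add_assoc]
  rw [Finset.mem_insert, not_or]
  exact ⟨D.χ_ne.symm, D.triv_nmem⟩

theorem mults [Fintype G] {α : G → ℂ} (hα : IsCharacter G α) :
    ∃ m : IrrCharacter G → ℕ, ∀ ψ : IrrCharacter G, classInner α (ψ : G → ℂ) = m ψ := by
  choose m hm using fun ψ : IrrCharacter G => inner_char_natCast hα (isCharacter_of_isIrr ψ.2)
  exact ⟨m, hm⟩

theorem expand [Fintype G] [Fintype (IrrCharacter G)] {α : G → ℂ} (hα : IsCharacter G α)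
    {m : IrrCharacter G → ℕ} (hm : ∀ ψ : IrrCharacter G, classInner α (ψ : G → ℂ) = m ψ) (g : G) :
    α g = ∑ ψ : IrrCharacter G, (m ψ : ℂ) * (ψ : G → ℂ) g := by
  have h := congrFun (mem_classFun_expand (isClassFunction_of_isCharacter hα)) g
  rw [h, Finset.sum_apply]
  exact Finset.sum_congr rfl fun ψ _ => by rw [Pi.smul_apply, hm, smul_eq_mul]

theorem expand_deg [Fintype G] [Fintype (IrrCharacter G)] {α : G → ℂ} (hα : IsCharacter G α)
    {m : IrrCharacter G → ℕ} (hm : ∀ ψ : IrrCharacter G, classInner α (ψ : G → ℂ) = m ψ)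
    {n : ℕ} (hn : α 1 = n) :
    n = ∑ ψ : IrrCharacter G, m ψ * charDegree (ψ : G → ℂ) := by
  have h := expand hα hm 1
  rw [hn] at h
  have h2 : (n : ℂ) = ((∑ ψ : IrrCharacter G, m ψ * charDegree (ψ : G → ℂ) : ℕ) : ℂ) := by
    rw [h]
    push_cast
    exact Finset.sum_congr rfl fun ψ _ => by rw [coe_charDegree]
  exact_mod_cast h2

theorem charDegree_pos (ψ : IrrCharacter G) : 0 < charDegree (ψ : G → ℂ) := by
  obtain ⟨n, hn, h1⟩ := exists_degree_pos ψ.2
  have h2 := coe_charDegree ψ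
  rw [h1] at h2
  have : charDegree (ψ : G → ℂ) = n := by exact_mod_cast h2
  omega

/-- the decomposition of a character of degree `2p` vanishing on the `p`-singular elements -/
theorem Data.perm [Fintype G] (D : Data G p χ Y δ ε) (hp : 5 ≤ p) (hdeg : charDegree (χ : G → ℂ) ≠ 1)
    {π : G → ℂ} (hπ : IsCharacter G π) (hπ1 : π 1 = (2 * p : ℕ))
    (h1 : classInner π (triv G : G → ℂ) = 1) (hs : ∀ y : G, p ∣ orderOf y → π y = 0) :
    δ = -1 ∧ ε = -1 ∧ ((∀ g, π g = 1 + (χ : G → ℂ) g) ∨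
      (charDegree (χ : G → ℂ) = p - 1 ∧ ∃ ψ : IrrCharacter G, ψ ≠ triv G ∧ ψ ≠ χ ∧ ψ ∉ Y ∧
        ∀ g, π g = 1 + (χ : G → ℂ) g + (ψ : G → ℂ) g)) := by
  classical
  let _ := Fintype.ofFinite (IrrCharacter G)
  obtain ⟨m, hm⟩ := mults hπ
  have hsum := expand_deg hπ hm hπ1
  rw [D.sum_split] at hsum
  have hm1 : m (triv G) = 1 := by
    have := hm (triv G)
    rw [h1] at this
    exact_mod_cast this.symm
  have hd1 : charDegree (triv G : G → ℂ) = 1 := by
    have := coe_charDegree (triv G)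
    rw [triv_apply] at this
    exact_mod_cast this
  have hmθ : ∀ θ ∈ Y, ε * (m θ : ℤ) = 1 + δ * m χ := by
    intro θ hθ
    have := D.inner_exc hs hθ
    rw [hm, hm, hm, hm1, sub_zero] at this
    exact_mod_cast this
  have hdθ : ∀ θ ∈ Y, ε * (charDegree (θ : G → ℂ) : ℤ) = 1 + δ * charDegree (χ : G → ℂ) :=
    fun θ hθ => D.deg_exc (by omega) hθ
  have hYc : 2 ≤ Y.card := by
    have := D.card
    omega
  obtain ⟨θ0, hθ0⟩ : Y.Nonempty := Finset.card_pos.1 (by omega)
  obtain ⟨k, hk⟩ := D.deg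
  have hdpos := charDegree_pos χ
  have hθpos := charDegree_pos θ0
  have hTd : p ∣ ∑ ψ ∈ Finset.univ \ insert (triv G) (insert χ Y), m ψ * charDegree (ψ : G → ℂ) := by
    refine Finset.dvd_sum fun ψ hψ => ?_
    rw [Finset.mem_sdiff, Finset.mem_insert, Finset.mem_insert] at hψ
    push Not at hψ
    exact Dvd.dvd.mul_left (D.off ψ hψ.2.1 hψ.2.2.1 hψ.2.2.2).2 _
  set T := ∑ ψ ∈ Finset.univ \ insert (triv G) (insert χ Y), m ψ * charDegree (ψ : G → ℂ) with hT
  rw [hm1, hd1, one_mul] at hsum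
  rcases D.hδ with hδ | hδ
  · exfalso
    rw [hδ] at hmθ hdθ hk
    have hε : ε = 1 := by
      rcases D.hε with h | h
      · exact h
      · exfalso
        have := hmθ θ0 hθ0
        rw [h] at this
        omega
    rw [hε] at hmθ hdθ
    have hk1 : 1 ≤ k := by
      by_contra hcon
      push Not at hcon
      have : k ≤ 0 := by omega
      rcases eq_or_lt_of_le this with h | h
      · rw [h] at hk
        omega
      · have : (p : ℤ) * k ≤ -p := by nlinarith
        omega
    have hdlow : p + 1 ≤ charDegree (χ : G → ℂ) := by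
      have : (p : ℤ) ≤ p * k := by nlinarith
      omega
    have hlow : ∀ θ ∈ Y, p + 2 ≤ m θ * charDegree (θ : G → ℂ) := by
      intro θ hθ
      have h2 := hmθ θ hθ
      have h3 := hdθ θ hθ
      have h4 : 1 ≤ m θ := by omega
      have h5 : p + 2 ≤ charDegree (θ : G → ℂ) := by omega
      nlinarith
    have h6 := Finset.card_nsmul_le_sum Y _ _ hlow
    rw [smul_eq_mul] at h6
    have h7 : 2 * (p + 2) ≤ Y.card * (p + 2) := Nat.mul_le_mul_right _ hYc
    omega
  · rw [hδ] at hmθ hdθ hk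
    have hk1 : 1 ≤ k := by
      by_contra hcon
      push Not at hcon
      have : k ≤ 0 := by omega
      have : (p : ℤ) * k ≤ 0 := by nlinarith
      omega
    have hdlow : p - 1 ≤ charDegree (χ : G → ℂ) := by
      have : (p : ℤ) ≤ p * k := by nlinarith
      omega
    have hε : ε = -1 := by
      rcases D.hε with h | h
      · exfalso
        have := hdθ θ0 hθ0
        rw [h] at this
        omega
      · exact h
    refine ⟨hδ, hε, ?_⟩
    rw [hε] at hmθ hdθ
    have hb : m χ = 1 := by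
      by_contra hcon
      have h2 := hmθ θ0 hθ0
      have h3 : 2 ≤ m χ := by omega
      have hlow : ∀ θ ∈ Y, p - 2 ≤ m θ * charDegree (θ : G → ℂ) := by
        intro θ hθ
        have h2 := hmθ θ hθ
        have h3 := hdθ θ hθ
        have h4 : 1 ≤ m θ := by omega
        have h5 : p - 2 ≤ charDegree (θ : G → ℂ) := by omega
        nlinarith
      have h6 := Finset.card_nsmul_le_sum Y _ _ hlow
      rw [smul_eq_mul] at h6
      have h7 : 2 * (p - 2) ≤ Y.card * (p - 2) := Nat.mul_le_mul_right _ hYc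
      have h8 : 2 * (p - 1) ≤ m χ * charDegree (χ : G → ℂ) := Nat.mul_le_mul h3 hdlow
      omega
    have hb0 : ∀ θ ∈ Y, m θ = 0 := by
      intro θ hθ
      have h2 := hmθ θ hθ
      rw [hb] at h2
      omega
    rw [hb, Finset.sum_eq_zero (fun θ hθ => by rw [hb0 θ hθ, zero_mul]), one_mul, add_zero] at hsum
    have hexp : ∀ g, π g = 1 + (χ : G → ℂ) g + ∑ ψ ∈ Finset.univ \ insert (triv G) (insert χ Y),
        (m ψ : ℂ) * (ψ : G → ℂ) g := by
      intro g
      rw [expand hπ hm g, D.sum_split, hm1, hb, Finset.sum_eq_zero (s := Y), triv_apply]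
      · push_cast
        ring
      · intro θ hθ
        rw [hb0 θ hθ]
        push_cast
        ring
    obtain ⟨t, ht⟩ := hTd
    rw [ht] at hsum
    have hkt : k + t = 2 := by
      have h9 : (2 * p : ℤ) = 1 + (charDegree (χ : G → ℂ) : ℤ) + p * t := by exact_mod_cast hsum
      rw [hk] at h9
      have h10 : (p : ℤ) * (k + t) = p * 2 := by linarith
      exact mul_left_cancel₀ (by omega) h10
    have ht2 : t = 0 ∨ t = 1 := by omega
    rcases ht2 with rfl | rfl
    · left
      intro g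
      rw [mul_zero] at ht
      have h11 := (Finset.sum_eq_zero_iff).1 ht
      rw [hexp g, Finset.sum_eq_zero, add_zero]
      intro ψ hψ
      have h12 := h11 ψ hψ
      have h13 : m ψ = 0 := by
        rcases Nat.mul_eq_zero.1 h12 with h | h
        · exact h
        · have := charDegree_pos ψ
          omega
      rw [h13, Nat.cast_zero, zero_mul]
    · right
      have hk2 : k = 1 := by omega
      rw [hk2] at hk
      refine ⟨by omega, ?_⟩
      rw [mul_one] at ht
      have hne : ∃ ψ ∈ Finset.univ \ insert (triv G) (insert χ Y),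
          m ψ * charDegree (ψ : G → ℂ) ≠ 0 := by
        by_contra hcon
        push Not at hcon
        rw [hT, Finset.sum_eq_zero hcon] at ht
        omega
      obtain ⟨ψ, hψ, hψ0⟩ := hne
      have hψ' := hψ
      rw [Finset.mem_sdiff, Finset.mem_insert, Finset.mem_insert] at hψ'
      push Not at hψ'
      obtain ⟨c, hc⟩ := (D.off ψ hψ'.2.1 hψ'.2.2.1 hψ'.2.2.2).2
      rw [hT, ← Finset.add_sum_erase _ _ hψ] at ht
      have hmc : m ψ * c ≠ 0 := by
        intro h
        apply hψ0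
        rw [hc]
        calc m ψ * (p * c) = p * (m ψ * c) := by ring
          _ = 0 := by rw [h, mul_zero]
      have h14 : m ψ * charDegree (ψ : G → ℂ) = p * (m ψ * c) := by rw [hc]; ring
      have h15 : m ψ * c = 1 := by
        have h16 : m ψ * c < 2 := by
          by_contra hcon
          push Not at hcon
          have : p * 2 ≤ p * (m ψ * c) := Nat.mul_le_mul_left _ hcon
          omega
        omega
      have h17 : m ψ = 1 := Nat.eq_one_of_mul_eq_one_right h15
      rw [h14, h15, mul_one] at ht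
      have h18 : ∑ x ∈ (Finset.univ \ insert (triv G) (insert χ Y)).erase ψ,
          m x * charDegree (x : G → ℂ) = 0 := by omega
      refine ⟨ψ, hψ'.2.1, hψ'.2.2.1, hψ'.2.2.2, fun g => ?_⟩
      rw [hexp g, ← Finset.add_sum_erase _ _ hψ, h17, Finset.sum_eq_zero, Nat.cast_one, one_mul,
        add_zero]
      intro x hx
      have h12 := (Finset.sum_eq_zero_iff).1 h18 x hx
      have h13 : m x = 0 := by
        rcases Nat.mul_eq_zero.1 h12 with h | h
        · exact h
        · have := charDegree_pos x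
          omega
      rw [h13, Nat.cast_zero, zero_mul]

end H59.PTwo
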