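import Cfsg.Agent.Lib.H59.PTwo
import Cfsg.Agent.Lib.H78.Galois
import Cfsg.Agent.Lib.H5.BurnsideZero
import Cfsg.Agent.Lib.H83.FSMult

set_option autoImplicit false
set_option linter.unusedSectionVars false

/-!
Groups with a self-centralizing Sylow subgroup of prime order whose normalizer has order `2p`:
the case of an irreducible character of degree `p - 1`.
-/

namespace H59.PTwo

open Cfsg H18.CharBasic H18.CharOrtho H18.CharInd H21.PLat H59.PSelf

universe u

variable {G : Type u} [Group G] {p : ℕ} {χ : IrrCharacter G} {Y : Finset (IrrCharacter G)}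
  {δ ε : ℤ}

/-- the non-exceptional character is integer valued -/
theorem Data.int_valued [Finite G] (D : Data G p χ Y δ ε) (hp : 1 < p) {y0 : G}
    (hy0 : p ∣ orderOf y0) (hδ : δ = -1) (hε : ε = -1) (hd : charDegree (χ : G → ℂ) ≠ 1) :
    ∃ f : G → ℤ, ∀ g, (χ : G → ℂ) g = f g := by
  have key : ∀ k : ℕ, Nat.Coprime k (Nat.card G) → ∀ g, (χ : G → ℂ) (g ^ k) = (χ : G → ℂ) g := by
    intro k hk g
    have h1 : H78.Galois.powIrr hk χ = χ := by
      by_contra hcon
      have hdeg : charDegree (H78.Galois.powIrr hk χ : G → ℂ) = charDegree (χ : G → ℂ) := by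
        have h2 := coe_charDegree (H78.Galois.powIrr hk χ)
        rw [H78.Galois.powIrr_apply, one_pow, ← coe_charDegree] at h2
        exact_mod_cast h2
      by_cases ht : H78.Galois.powIrr hk χ = triv G
      · apply hd
        rw [← hdeg, ht]
        have := coe_charDegree (triv G)
        rw [triv_apply] at this
        exact_mod_cast this
      by_cases hY : H78.Galois.powIrr hk χ ∈ Y
      · have h3 := D.deg_exc hp hY
        rw [hdeg, hδ, hε] at h3
        omega
      · have h4 := (D.off _ ht hcon hY).1 y0 hy0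
        rw [H78.Galois.powIrr_apply, D.sing, hδ] at h4
        · norm_num at h4
        · have h5 : Nat.Coprime (orderOf y0) k :=
            (hk.symm).coprime_dvd_left (orderOf_dvd_natCard y0)
          rw [h5.orderOf_pow]
          exact hy0
    have h2 := congrFun (congrArg Subtype.val h1) g
    exact h2
  have h3 : ∀ g, ∃ n : ℤ, (n : ℂ) = (χ : G → ℂ) g := by
    intro g
    refine H5.BurnsideZero.int_of_fixed (char_isIntegral (isCharacter_of_isIrr χ.2) g) ?_
    intro σ
    obtain ⟨k, hk, hz⟩ := H5.BurnsideZero.exists_pow σ (Nat.card_pos (α := G)).ne'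
    have h4 := H78.Galois.char_map_eq_pow (dvd_refl (Nat.card G)) (σ := (σ : ℂ →+* ℂ)) (k := k) hz
      (isCharacter_of_isIrr χ.2) g
    rw [key k hk g] at h4
    exact h4
  choose f hf using h3
  exact ⟨f, fun g => (hf g).symm⟩

theorem sing_sq {y : G} (hp : p.Prime) (hp2 : p ≠ 2) (hy : p ∣ orderOf y) : p ∣ orderOf (y * y) := by
  rw [← pow_two]
  have h1 : orderOf y ∣ 2 * orderOf (y ^ 2) := by
    rw [orderOf_dvd_iff_pow_eq_one, pow_mul, pow_orderOf_eq_one]
  rcases hp.dvd_mul.1 (hy.trans h1) with h | h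
  · exact absurd ((Nat.prime_dvd_prime_iff_eq hp Nat.prime_two).1 h) hp2
  · exact h

/-- the counting data -/
structure Count (G : Type u) [Group G] [Fintype G] (p : ℕ) (f : G → ℤ) : Prop where
  one : f 1 = p - 1
  sing : ∀ y : G, p ∣ orderOf y → f y = -1
  reg : ∀ y : G, ¬ p ∣ orderOf y → f (y * y) = f y ^ 2 - (p - 1) * (f y - 1)
  sum1 : ∑ g, f g = 0
  sum2 : ∑ g, f g ^ 2 = Nat.card G
  sum3 : ∑ g, f g ^ 3 = Nat.card G
  card : (Nat.card {g : G // p ∣ orderOf g}) * (2 * p) = Nat.card G * (p - 1)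

theorem inner_sum_eq [Fintype G] (f : G → ℤ) {χ : IrrCharacter G}
    (hf : ∀ g, (χ : G → ℂ) g = f g) (α : G → ℂ) :
    (Nat.card G : ℂ) * classInner α (χ : G → ℂ) = ∑ g : G, α g * f g := by
  rw [classInner, ← mul_assoc, mul_inv_cancel₀ card_ne_zero', one_mul]
  refine Finset.sum_congr rfl fun g _ => ?_
  rw [hf, map_intCast]

theorem Data.count [Fintype G] (D : Data G p χ Y δ ε) (hpp : p.Prime) (hp : 5 ≤ p)
    (hδ : δ = -1) (hε : ε = -1) (hdeg : charDegree (χ : G → ℂ) = p - 1)
    (f : G → ℤ) (hf : ∀ g, (χ : G → ℂ) g = f g) (hν : H83.FSMult.nu (χ : G → ℂ) = 1) :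
    Count G p f := by
  classical
  let _ := Fintype.ofFinite (IrrCharacter G)
  have hχc := isCharacter_of_isIrr χ.2
  have hG : (Nat.card G : ℂ) ≠ 0 := card_ne_zero'
  have hχt : (χ : G → ℂ) ≠ (triv G : G → ℂ) := fun h => D.χ_ne (Subtype.ext h)
  have hin1 : ∀ α : G → ℂ, (Nat.card G : ℂ) * classInner α (triv G : G → ℂ) = ∑ g, α g := by
    intro α
    rw [classInner, ← mul_assoc, mul_inv_cancel₀ hG, one_mul]
    refine Finset.sum_congr rfl fun g _ => ?_
    rw [triv_apply, map_one, mul_one]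
  have hχ1 : (χ : G → ℂ) 1 = ((p - 1 : ℕ) : ℂ) := by rw [← coe_charDegree, hdeg]
  have hone : f 1 = p - 1 := by
    have h1 := hf 1
    rw [hχ1] at h1
    have h2 : (((p - 1 : ℕ) : ℤ) : ℂ) = (f 1 : ℂ) := by rw [← h1]; push_cast; rfl
    have h3 : ((p - 1 : ℕ) : ℤ) = f 1 := by exact_mod_cast h2
    omega
  have hsing : ∀ y : G, p ∣ orderOf y → f y = -1 := by
    intro y hy
    have h1 := D.sing y hy
    rw [hf, hδ] at h1
    exact_mod_cast h1
  have hsum1 : ∑ g, f g = 0 := by
    have h1 := hin1 (χ : G → ℂ)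
    rw [inner_irr_ne χ.2 (triv G).2 hχt, mul_zero] at h1
    have h2 : ((∑ g, f g : ℤ) : ℂ) = 0 := by
      push_cast
      rw [h1]
      exact Finset.sum_congr rfl fun g _ => (hf g).symm
    exact_mod_cast h2
  have hsum2 : ∑ g, f g ^ 2 = Nat.card G := by
    have h1 := inner_sum_eq f hf (χ : G → ℂ)
    rw [inner_irr_self χ.2, mul_one] at h1
    have h2 : ((∑ g, f g ^ 2 : ℤ) : ℂ) = ((Nat.card G : ℤ) : ℂ) := by
      push_cast
      rw [h1]
      exact Finset.sum_congr rfl fun g _ => by rw [hf, sq]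
    exact_mod_cast h2
  -- the squares
  set S : G → ℂ := fun g => ((χ : G → ℂ) g ^ 2 + (χ : G → ℂ) (g * g)) / 2 with hS
  set A : G → ℂ := fun g => ((χ : G → ℂ) g ^ 2 - (χ : G → ℂ) (g * g)) / 2 with hA
  have hSc : IsCharacter G S := H59.SymAlt.isCharacter_sym hχc
  have hAc : IsCharacter G A := H59.SymAlt.isCharacter_alt hχc
  have hSs : ∀ y : G, p ∣ orderOf y → S y = 0 := by
    intro y hy
    rw [hS]
    simp only
    rw [D.sing y hy, D.sing _ (sing_sq hpp (by omega) hy), hδ]
    norm_num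
  have hAs : ∀ y : G, p ∣ orderOf y → A y = 1 := by
    intro y hy
    rw [hA]
    simp only
    rw [D.sing y hy, D.sing _ (sing_sq hpp (by omega) hy), hδ]
    norm_num
  have hsq1 : ∑ g, (χ : G → ℂ) g ^ 2 = Nat.card G := by
    have : ((∑ g, f g ^ 2 : ℤ) : ℂ) = ((Nat.card G : ℤ) : ℂ) := by rw [hsum2]
    push_cast at this
    rw [← this]
    exact Finset.sum_congr rfl fun g _ => by rw [hf]
  have hνs : ∑ g, (χ : G → ℂ) (g * g) = Nat.card G := by
    rw [H83.FSMult.nu_eq] at hν
    field_simp at hν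
    exact hν
  have hS1 : classInner S (triv G : G → ℂ) = 1 := by
    have h1 := hin1 S
    have h2 : ∑ g, S g = Nat.card G := by
      rw [hS]
      simp only
      rw [← Finset.sum_div, Finset.sum_add_distrib, hsq1, hνs]
      ring
    rw [h2] at h1
    exact mul_left_cancel₀ hG (by rw [h1, mul_one])
  have hA1 : classInner A (triv G : G → ℂ) = 0 := by
    have h1 := hin1 A
    have h2 : ∑ g, A g = 0 := by
      rw [hA]
      simp only
      rw [← Finset.sum_div, Finset.sum_sub_distrib, hsq1, hνs]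
      ring
    rw [h2] at h1
    exact (mul_eq_zero.1 h1).resolve_left hG
  -- common facts
  have hd1 : charDegree (triv G : G → ℂ) = 1 := by
    have := coe_charDegree (triv G)
    rw [triv_apply] at this
    exact_mod_cast this
  have hθd : ∀ θ ∈ Y, charDegree (θ : G → ℂ) = p - 2 := by
    intro θ hθ
    have := D.deg_exc hpp.one_lt hθ
    rw [hdeg, hδ, hε] at this
    omega
  have hYc := D.card
  have hYc2 : (Y.card : ℤ) * 2 = p - 1 := by omega
  -- alternating square
  obtain ⟨a, ha⟩ := mults hAc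
  have haθ : ∀ θ ∈ Y, (a θ : ℤ) = a χ + 1 := by
    intro θ hθ
    have := D.inner_exc hAs hθ
    rw [ha θ, hA1, ha χ, hδ, hε] at this
    push_cast at this
    have h2 : (-1 : ℤ) * a θ = 0 + (-1) * a χ - 1 := by exact_mod_cast this
    omega
  have hAdeg : A 1 = (((p - 2) * Y.card : ℕ) : ℂ) := by
    have h1 : ((Y.card : ℤ) : ℂ) * 2 = ((p : ℤ) : ℂ) - 1 := by exact_mod_cast hYc2
    have h2 : ((p - 1 : ℕ) : ℂ) = (p : ℂ) - 1 := by rw [Nat.cast_sub (by omega)]; simp
    have h3 : ((p - 2 : ℕ) : ℂ) = (p : ℂ) - 2 := by rw [Nat.cast_sub (by omega)]; simp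
    rw [hA]
    simp only
    rw [one_mul, hχ1, Nat.cast_mul, h2, h3]
    push_cast at h1
    linear_combination (-(p - 2 : ℂ) / 2) * h1
  have hAe := expand_deg hAc ha hAdeg
  have ha1 : a (triv G) = 0 := by
    have := ha (triv G)
    rw [hA1] at this
    exact_mod_cast this.symm
  rw [D.sum_split, ha1, zero_mul, zero_add] at hAe
  have hYpos : 2 ≤ Y.card := by omega
  have haχ : a χ = 0 := by
    by_contra hcon
    have hlow : ∀ θ ∈ Y, 2 * (p - 2) ≤ a θ * charDegree (θ : G → ℂ) := by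
      intro θ hθ
      rw [hθd θ hθ]
      exact Nat.mul_le_mul_right _ (by have := haθ θ hθ; omega)
    have h6 := Finset.card_nsmul_le_sum Y _ _ hlow
    rw [smul_eq_mul] at h6
    have h7 : Y.card * (2 * (p - 2)) = 2 * ((p - 2) * Y.card) := by ring
    have h8 : 0 < (p - 2) * Y.card := Nat.mul_pos (by omega) (by omega)
    omega
  have haθ1 : ∀ θ ∈ Y, a θ = 1 := by
    intro θ hθ
    have := haθ θ hθ
    omega
  have hsY : ∑ θ ∈ Y, a θ * charDegree (θ : G → ℂ) = (p - 2) * Y.card := by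
    rw [Finset.sum_congr rfl (fun θ hθ => by rw [haθ1 θ hθ, hθd θ hθ, one_mul]), Finset.sum_const,
      smul_eq_mul, mul_comm]
  rw [haχ, zero_mul, zero_add, hsY] at hAe
  have hrest : ∑ ψ ∈ Finset.univ \ insert (triv G) (insert χ Y), a ψ * charDegree (ψ : G → ℂ) = 0 := by
    omega
  have hAexp : ∀ g, A g = ∑ θ ∈ Y, (θ : G → ℂ) g := by
    intro g
    rw [expand hAc ha g, D.sum_split, ha1, haχ, Nat.cast_zero, zero_mul, zero_mul, zero_add,
      zero_add, Finset.sum_congr rfl (fun θ hθ => by rw [haθ1 θ hθ, Nat.cast_one, one_mul])]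
    rw [add_eq_left]
    refine Finset.sum_eq_zero fun ψ hψ => ?_
    have h12 := (Finset.sum_eq_zero_iff).1 hrest ψ hψ
    have h13 : a ψ = 0 := by
      rcases Nat.mul_eq_zero.1 h12 with h | h
      · exact h
      · have := charDegree_pos ψ
        omega
    rw [h13, Nat.cast_zero, zero_mul]
  have hreg : ∀ y : G, ¬ p ∣ orderOf y → f (y * y) = f y ^ 2 - (p - 1) * (f y - 1) := by
    intro y hy
    have h1 := hAexp y
    have h2 : ∑ θ ∈ Y, (θ : G → ℂ) y = (Y.card : ℂ) * ((χ : G → ℂ) y - 1) := by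
      rw [Finset.sum_congr rfl (fun θ hθ => ?_), Finset.sum_const, nsmul_eq_mul]
      have h3 := D.reg θ hθ y hy
      rw [hδ, hε] at h3
      push_cast at h3
      linear_combination -h3
    rw [h2, hA] at h1
    simp only at h1
    rw [hf, hf] at h1
    have h4 : ((Y.card : ℤ) : ℂ) * 2 = ((p : ℤ) : ℂ) - 1 := by exact_mod_cast hYc2
    have h5 : ((f (y * y) : ℤ) : ℂ) = ((f y ^ 2 - (p - 1) * (f y - 1) : ℤ) : ℂ) := by
      push_cast
      push_cast at h4
      linear_combination (-2 : ℂ) * h1 + (-((f y : ℂ) - 1)) * h4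
    exact_mod_cast h5
  -- symmetric square
  obtain ⟨s, hs⟩ := mults hSc
  have hsθ : ∀ θ ∈ Y, (s χ : ℤ) = 1 + s θ := by
    intro θ hθ
    have := D.inner_exc hSs hθ
    rw [hs θ, hS1, hs χ, hδ, hε] at this
    push_cast at this
    have h2 : (-1 : ℤ) * s θ = 1 + (-1) * s χ - 0 := by exact_mod_cast this
    omega
  have hSdeg : S 1 = ((p * Y.card : ℕ) : ℂ) := by
    have h1 : ((Y.card : ℤ) : ℂ) * 2 = ((p : ℤ) : ℂ) - 1 := by exact_mod_cast hYc2
    have h2 : ((p - 1 : ℕ) : ℂ) = (p : ℂ) - 1 := by rw [Nat.cast_sub (by omega)]; simp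
    rw [hS]
    simp only
    rw [one_mul, hχ1, Nat.cast_mul, h2]
    push_cast at h1
    linear_combination (-(p : ℂ) / 2) * h1
  have hSe := expand_deg hSc hs hSdeg
  have hs1 : s (triv G) = 1 := by
    have := hs (triv G)
    rw [hS1] at this
    exact_mod_cast this.symm
  rw [D.sum_split, hs1, hd1, hdeg] at hSe
  obtain ⟨θ0, hθ0⟩ : Y.Nonempty := Finset.card_pos.1 (by omega)
  have hsχ : s χ = 1 := by
    by_contra hcon
    have h0 := hsθ θ0 hθ0
    have h2 : 2 ≤ s χ := by omega
    have hlow : ∀ θ ∈ Y, (p - 2) ≤ s θ * charDegree (θ : G → ℂ) := by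
      intro θ hθ
      rw [hθd θ hθ]
      have h3 := hsθ θ hθ
      have h4 : 1 ≤ s θ := by omega
      nlinarith
    have h6 := Finset.card_nsmul_le_sum Y _ _ hlow
    rw [smul_eq_mul] at h6
    have h7 : 2 * (p - 1) ≤ s χ * (p - 1) := Nat.mul_le_mul_right _ h2
    have h8 : Y.card * (p - 2) + 2 * Y.card = p * Y.card := by
      rw [mul_comm Y.card, ← add_mul]
      congr 1
      omega
    omega
  have hsum3 : ∑ g, f g ^ 3 = Nat.card G := by
    have h1 := inner_sum_eq f hf (S + A)
    rw [H18.CharOrtho.inner_add_left, hs, ha, hsχ, haχ] at h1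
    have h2 : ((∑ g, f g ^ 3 : ℤ) : ℂ) = ((Nat.card G : ℤ) : ℂ) := by
      push_cast
      have h3 : ∀ g, ((f g : ℂ)) ^ 3 = (S + A) g * f g := by
        intro g
        rw [Pi.add_apply, hS, hA]
        simp only
        rw [hf, hf]
        ring
      rw [Finset.sum_congr rfl (fun g _ => h3 g), ← h1]
      push_cast
      ring
    exact_mod_cast h2
  refine ⟨hone, hsing, hreg, hsum1, hsum2, hsum3, ?_⟩
  -- number of singular elements
  have hθs : ∀ θ ∈ Y, ∑ g : G, (if p ∣ orderOf g then ((θ : G → ℂ) g + 2) else 0) = Nat.card G := by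
    intro θ hθ
    have hθt : (θ : G → ℂ) ≠ (triv G : G → ℂ) := by
      intro h
      exact D.triv_nmem (by rwa [← Subtype.ext h])
    have h1 := hin1 (θ : G → ℂ)
    rw [inner_irr_ne θ.2 (triv G).2 hθt, mul_zero] at h1
    have h2 := hin1 (χ : G → ℂ)
    rw [inner_irr_ne χ.2 (triv G).2 hχt, mul_zero] at h2
    have h3 : ∀ g : G, (if p ∣ orderOf g then ((θ : G → ℂ) g + 2) else 0) =
        (θ : G → ℂ) g - (χ : G → ℂ) g + 1 := by
      intro g
      split_ifs with h
      · rw [D.sing g h, hδ]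
        push_cast
        ring
      · have h4 := D.reg θ hθ g h
        rw [hδ, hε] at h4
        push_cast at h4
        linear_combination h4
    rw [Finset.sum_congr rfl (fun g _ => h3 g), Finset.sum_add_distrib, Finset.sum_sub_distrib, ← h1,
      ← h2, Finset.sum_const, Finset.card_univ, nsmul_eq_mul, mul_one, sub_zero, zero_add,
      Nat.card_eq_fintype_card]
  have h1 : ∑ g : G, (if p ∣ orderOf g then (p : ℂ) else 0) = Y.card * Nat.card G := by
    have h2 : ∑ θ ∈ Y, ∑ g : G, (if p ∣ orderOf g then ((θ : G → ℂ) g + 2) else 0) =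
        Y.card * Nat.card G := by
      rw [Finset.sum_congr rfl hθs, Finset.sum_const, nsmul_eq_mul]
    rw [Finset.sum_comm] at h2
    rw [← h2]
    refine Finset.sum_congr rfl fun g _ => ?_
    split_ifs with h
    · rw [Finset.sum_add_distrib, ← hAexp, hAs g h, Finset.sum_const, nsmul_eq_mul]
      have h4 : ((Y.card : ℤ) : ℂ) * 2 = ((p : ℤ) : ℂ) - 1 := by exact_mod_cast hYc2
      push_cast at h4
      linear_combination -h4
    · rw [Finset.sum_const_zero]
  rw [← Finset.sum_filter, Finset.sum_const, nsmul_eq_mul] at h1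
  rw [Nat.card_eq_fintype_card, Fintype.card_subtype]
  have h5 : (Finset.univ.filter (fun g : G => p ∣ orderOf g)).card * p = Y.card * Nat.card G := by
    exact_mod_cast h1
  calc (Finset.univ.filter (fun g : G => p ∣ orderOf g)).card * (2 * p)
      = 2 * ((Finset.univ.filter (fun g : G => p ∣ orderOf g)).card * p) := by ring
    _ = Nat.card G * (2 * Y.card) := by rw [h5]; ring
    _ = Nat.card G * (p - 1) := by rw [D.card]

end H59.PTwo
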