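import Cfsg.Agent.Lib.H59.PTwo2

set_option autoImplicit false
set_option linter.unusedSectionVars false

/-!
Counting arguments for an irreducible character of degree `p - 1`.
-/

namespace H59.PTwo

universe u

variable {G : Type u} [Group G] [Fintype G] {p : ℕ} {f : G → ℤ}

theorem reg_sq {y : G} (hy : ¬ p ∣ orderOf y) : ¬ p ∣ orderOf (y * y) := by
  intro h
  apply hy
  refine h.trans ?_
  rw [← pow_two, orderOf_dvd_iff_pow_eq_one, ← pow_mul, mul_comm, pow_mul, pow_orderOf_eq_one,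
    one_pow]

theorem Count.bounds (C : Count G p f) (hp : 5 ≤ p) (hle : ∀ g, f g ≤ p - 1)
    (hfa : ∀ g, f g = p - 1 → g = 1) {y : G} (hy : ¬ p ∣ orderOf y) (hy1 : y ≠ 1) :
    0 ≤ f y ∧ f y ≤ p - 2 ∧ f y * (p - 1 - f y) ≤ p - 1 := by
  have key : ∀ z : G, ¬ p ∣ orderOf z → 0 ≤ f z := by
    intro z hz
    by_contra hcon
    push Not at hcon
    have h1 := C.reg z hz
    have h2 := hle (z * z)
    have h3 : 0 < f z * f z := by nlinarith
    have h4 : (0 : ℤ) < p - 1 := by omega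
    nlinarith
  have h1 := key y hy
  have h2 : f y ≤ p - 2 := by
    have h3 := hle y
    have h4 : f y ≠ p - 1 := fun h => hy1 (hfa y h)
    omega
  refine ⟨h1, h2, ?_⟩
  have h3 := key _ (reg_sq hy)
  rw [C.reg y hy] at h3
  nlinarith

open Classical in
/-- nontrivial `p`-regular elements -/
noncomputable def Rg (G : Type u) [Group G] [Fintype G] (p : ℕ) : Finset G :=
  Finset.univ.filter (fun g : G => ¬ p ∣ orderOf g ∧ g ≠ 1)

theorem mem_Rg {g : G} : g ∈ Rg G p ↔ ¬ p ∣ orderOf g ∧ g ≠ 1 := by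
  classical
  rw [Rg, Finset.mem_filter]
  simp

/-- number of singular elements -/
noncomputable def Ns (G : Type u) [Group G] (p : ℕ) : ℕ := Nat.card {g : G // p ∣ orderOf g}

theorem Count.split (C : Count G p f) (hp : 1 < p) (F : ℤ → ℤ) :
    ∑ g, F (f g) = F (p - 1) + ∑ g ∈ Rg G p, F (f g) + Ns G p * F (-1) := by
  classical
  have h1 : ∑ g ∈ Finset.univ.filter (fun g : G => p ∣ orderOf g), F (f g) = Ns G p * F (-1) := by
    rw [Finset.sum_congr rfl (fun g hg => by rw [C.sing g (Finset.mem_filter.1 hg).2]),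
      Finset.sum_const, nsmul_eq_mul, Ns, Nat.card_eq_fintype_card, Fintype.card_subtype]
  rw [← Finset.sum_filter_add_sum_filter_not Finset.univ (fun g : G => p ∣ orderOf g), h1, add_comm]
  congr 1
  have h2 : (1 : G) ∈ Finset.univ.filter (fun g : G => ¬ p ∣ orderOf g) := by
    rw [Finset.mem_filter, orderOf_one]
    exact ⟨Finset.mem_univ _, fun h => hp.ne' (Nat.dvd_one.1 h)⟩
  rw [← Finset.add_sum_erase _ _ h2, C.one]
  congr 1
  apply Finset.sum_congr _ (fun _ _ => rfl)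
  ext g
  rw [Finset.mem_erase, Finset.mem_filter, mem_Rg]
  simp [and_comm]

theorem Count.sums (C : Count G p f) (hp : 1 < p) :
    (Nat.card G : ℤ) = 1 + (Rg G p).card + Ns G p ∧
    0 = (p - 1 : ℤ) + ∑ g ∈ Rg G p, f g - Ns G p ∧
    (Nat.card G : ℤ) = (p - 1 : ℤ) ^ 2 + ∑ g ∈ Rg G p, f g ^ 2 + Ns G p ∧
    (Nat.card G : ℤ) = (p - 1 : ℤ) ^ 3 + ∑ g ∈ Rg G p, f g ^ 3 - Ns G p ∧
    (Ns G p : ℤ) * (2 * p) = Nat.card G * (p - 1) := by
  refine ⟨?_, ?_, ?_, ?_, ?_⟩
  · have h := C.split hp (fun _ => 1)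
    simp only [Finset.sum_const, Finset.card_univ, nsmul_eq_mul, mul_one] at h
    rw [Nat.card_eq_fintype_card]
    exact h
  · have h := C.split hp (fun x => x)
    rw [C.sum1] at h
    linarith
  · have h := C.split hp (fun x => x ^ 2)
    rw [C.sum2] at h
    linarith
  · have h := C.split hp (fun x => x ^ 3)
    rw [C.sum3] at h
    linarith
  · have h := C.card
    have h2 : ((Nat.card {g : G // p ∣ orderOf g} * (2 * p) : ℕ) : ℤ) =
        ((Nat.card G * (p - 1) : ℕ) : ℤ) := by rw [h]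
    rw [Nat.cast_mul, Nat.cast_mul, Nat.cast_mul, Nat.cast_sub (by omega)] at h2
    exact_mod_cast h2

/-- the case `p = 5` -/
theorem Count.five (C : Count G p f) (hp : p = 5) (hle : ∀ g, f g ≤ p - 1)
    (hfa : ∀ g, f g = p - 1 → g = 1) : Nat.card G = 60 := by
  have hb : ∀ g ∈ Rg G p, 0 ≤ f g ∧ f g ≤ 3 := by
    intro g hg
    rw [mem_Rg] at hg
    obtain ⟨h1, h2, -⟩ := C.bounds (by omega) hle hfa hg.1 hg.2
    rw [hp] at h2
    exact ⟨h1, by norm_num at h2; exact h2⟩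
  obtain ⟨h0, h1, h2, h3, h4⟩ := C.sums (by omega)
  have hp' : (p : ℤ) = 5 := by rw [hp]; rfl
  rw [hp'] at h1 h2 h3 h4
  have e1 : 0 ≤ ∑ g ∈ Rg G p, f g ^ 3 - 3 * ∑ g ∈ Rg G p, f g ^ 2 + 2 * ∑ g ∈ Rg G p, f g := by
    rw [Finset.mul_sum, Finset.mul_sum, ← Finset.sum_sub_distrib, ← Finset.sum_add_distrib]
    refine Finset.sum_nonneg fun g hg => ?_
    obtain ⟨h5, h6⟩ := hb g hg
    generalize f g = a at h5 h6
    interval_cases a <;> norm_num
  have e2 : 0 ≤ 4 * ∑ g ∈ Rg G p, f g ^ 2 - ∑ g ∈ Rg G p, f g ^ 3 - 3 * ∑ g ∈ Rg G p, f g := by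
    rw [Finset.mul_sum, Finset.mul_sum, ← Finset.sum_sub_distrib, ← Finset.sum_sub_distrib]
    refine Finset.sum_nonneg fun g hg => ?_
    obtain ⟨h5, h6⟩ := hb g hg
    generalize f g = a at h5 h6
    interval_cases a <;> norm_num
  have : (Nat.card G : ℤ) = 60 := by omega
  exact_mod_cast this

/-- the case `p ≥ 7` -/
theorem Count.seven (C : Count G p f) (hp : 7 ≤ p) (hle : ∀ g, f g ≤ p - 1)
    (hfa : ∀ g, f g = p - 1 → g = 1) :
    (Nat.card G : ℤ) = (p - 1) * (p - 2) * p ∧ (∀ g ∈ Rg G p, f g = 0 ∨ f g = 1) ∧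
      ((Rg G p).card : ℤ) - ∑ g ∈ Rg G p, f g = p * (p - 2) := by
  have hb : ∀ g ∈ Rg G p, f g = 0 ∨ f g = 1 ∨ f g = p - 2 := by
    intro g hg
    rw [mem_Rg] at hg
    obtain ⟨h1, h2, h3⟩ := C.bounds (by omega) hle hfa hg.1 hg.2
    by_contra hcon
    push Not at hcon
    have h4 : 2 ≤ f g := by omega
    have h5 : f g ≤ p - 3 := by omega
    nlinarith [mul_nonneg (sub_nonneg.2 h4) (sub_nonneg.2 h5)]
  obtain ⟨h0, h1, h2, h3, h4⟩ := C.sums (by omega)
  have e1 : ∑ g ∈ Rg G p, f g ^ 3 - (p - 1 : ℤ) * ∑ g ∈ Rg G p, f g ^ 2 +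
      (p - 2 : ℤ) * ∑ g ∈ Rg G p, f g = 0 := by
    rw [Finset.mul_sum, Finset.mul_sum, ← Finset.sum_sub_distrib, ← Finset.sum_add_distrib]
    refine Finset.sum_eq_zero fun g hg => ?_
    rcases hb g hg with h | h | h <;> rw [h] <;> ring
  set F1 := ∑ g ∈ Rg G p, f g with hF1
  set F2 := ∑ g ∈ Rg G p, f g ^ 2 with hF2
  set F3 := ∑ g ∈ Rg G p, f g ^ 3 with hF3
  have hp0 : (0 : ℤ) < p := by omega
  have hcard : (Nat.card G : ℤ) = (p - 1) * (p - 2) * p := by
    have e2 : F1 = Ns G p - (p - 1) := by linarith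
    have e3 : F2 = Nat.card G - Ns G p - (p - 1) ^ 2 := by linarith
    have e4 : F3 = Nat.card G + Ns G p - (p - 1) ^ 3 := by linarith
    rw [e2, e3, e4] at e1
    -- `e1 : |G| + A - q^3 - q (|G| - A - q^2) + (q-1)(A - q) = 0`
    have e5 : (Nat.card G : ℤ) * (p - 2) = 2 * (p - 1) * Ns G p - (p - 1) * (p - 2) := by
      linear_combination -e1
    have e6 : (Nat.card G : ℤ) * (p - 2) * p = (p - 1) * (Nat.card G * (p - 1)) -
        (p - 1) * (p - 2) * p := by
      rw [e5, ← h4]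
      ring
    linear_combination -e6
  have e7 : (Ns G p : ℤ) * 2 = (p - 1) * (p - 1) * (p - 2) := by
    have : (p : ℤ) * (Ns G p * 2) = p * ((p - 1) * (p - 1) * (p - 2)) := by
      rw [hcard] at h4
      linear_combination h4
    exact mul_left_cancel₀ hp0.ne' this
  have e8 : F2 - F1 = 0 := by linear_combination (-1) * h2 + h1 + hcard - e7
  have e9 : ∑ g ∈ Rg G p, (f g ^ 2 - f g) = 0 := by
    rw [Finset.sum_sub_distrib]
    exact e8
  have hnn : ∀ g ∈ Rg G p, 0 ≤ f g ^ 2 - f g := by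
    intro g hg
    rcases hb g hg with h | h | h
    · rw [h]; norm_num
    · rw [h]; norm_num
    · rw [h]
      have h9 : (0 : ℤ) ≤ p - 2 := by omega
      have h10 : (0 : ℤ) ≤ p - 3 := by omega
      nlinarith
  refine ⟨hcard, ?_, ?_⟩
  · intro g hg
    have h5 := (Finset.sum_eq_zero_iff_of_nonneg hnn).1 e9 g hg
    rcases hb g hg with h | h | h
    · exact Or.inl h
    · exact Or.inr h
    · exfalso
      rw [h] at h5
      have h9 : (5 : ℤ) ≤ p - 2 := by omega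
      nlinarith
  · linear_combination (-1) * h0 + h1 + hcard - e7

end H59.PTwo
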