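import Cfsg.Agent.Lib.H59.PTwo3
import Cfsg.Agent.Lib.H59.ElemCent
import Cfsg.Agent.Lib.H59.PowCong
import Cfsg.Agent.Lib.H4.TwoTrans

set_option autoImplicit false
set_option linter.unusedSectionVars false

/-!
The case `p ≥ 7`.
-/

namespace H59.PTwo

open H59.ElemCent

universe u

variable {G : Type u} [Group G] [Fintype G] {p : ℕ} {f : G → ℤ}

/-- the data in the case `p ≥ 7` -/
structure Big (G : Type u) [Group G] [Fintype G] (p : ℕ) (f : G → ℤ) : Prop where
  C : Count G p f
  hpp : p.Prime
  hp : 7 ≤ p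
  hle : ∀ g, f g ≤ p - 1
  hfa : ∀ g, f g = p - 1 → g = 1
  cong : ∀ r : ℕ, r.Prime → ∀ g, (r : ℤ) ∣ f (g ^ r) - f g
  cent : ∀ y t : G, p ∣ orderOf y → orderOf t = 2 → t * y ≠ y * t

theorem Big.zero_or (B : Big G p f) {g : G} (hg : g ∈ Rg G p) : f g = 0 ∨ f g = 1 :=
  (B.C.seven B.hp B.hle B.hfa).2.1 g hg

theorem Big.inv_iff (B : Big G p f) {g : G} (hg : g ∈ Rg G p) : f g = 0 ↔ orderOf g = 2 := by
  have hp := B.hp
  have hg' := mem_Rg.1 hg
  constructor
  · intro h
    have h1 := B.C.reg g hg'.1
    rw [h] at h1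
    have h2 : g * g = 1 := B.hfa _ (by linarith)
    exact orderOf_two_of h2 hg'.2
  · intro h
    rcases B.zero_or hg with h0 | h0
    · exact h0
    · exfalso
      have h1 := B.C.reg g hg'.1
      have h2 : g * g = 1 := by
        have := pow_orderOf_eq_one g
        rwa [h, pow_two] at this
      rw [h2, B.C.one, h0] at h1
      omega

theorem Big.mem_of_order (B : Big G p f) {g : G} {n : ℕ} (hg : orderOf g = n) (hn : 1 < n)
    (hpn : ¬ p ∣ n) : g ∈ Rg G p := by
  rw [mem_Rg, hg]
  refine ⟨hpn, ?_⟩
  rintro rfl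
  rw [orderOf_one] at hg
  omega

theorem Big.elem (B : Big G p f) : E G := by
  have hp := B.hp
  intro u v hu huv
  by_contra hv
  have hp2 : ¬ p ∣ 2 := fun h => by have := Nat.le_of_dvd (by norm_num) h; omega
  have huR := B.mem_of_order hu (by norm_num) hp2
  have hfu : f u = 0 := (B.inv_iff huR).2 hu
  have hn : 2 < orderOf v := by
    by_contra hcon
    push Not at hcon
    have hpos := orderOf_pos v
    apply hv
    rw [← pow_two]
    rcases (show orderOf v = 1 ∨ orderOf v = 2 by omega) with h | h
    · rw [orderOf_eq_one_iff] at h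
      rw [h, one_pow]
    · rw [← h, pow_orderOf_eq_one]
  rcases Nat.four_dvd_or_exists_odd_prime_and_dvd_of_two_lt hn with h4 | ⟨r, hr, hrn, hro⟩
  · set w := v ^ (orderOf v / 4) with hw
    have hwo : orderOf w = 4 := orderOf_pow_orderOf_div (orderOf_pos v).ne' h4
    have hp4 : ¬ p ∣ 4 := fun h => by have := Nat.le_of_dvd (by norm_num) h; omega
    have hwR := B.mem_of_order hwo (by norm_num) hp4
    have hww : orderOf (w * w) = 2 := by
      rw [← pow_two, orderOf_pow' w (by norm_num), hwo]
      rfl
    have hwwR := B.mem_of_order hww (by norm_num) hp2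
    have h1 := (B.inv_iff hwwR).2 hww
    have h2 := B.C.reg w (mem_Rg.1 hwR).1
    rw [h1] at h2
    rcases B.zero_or hwR with h | h
    · rw [h] at h2
      omega
    · rw [h] at h2
      omega
  · set w := v ^ (orderOf v / r) with hw
    have hwo : orderOf w = r := orderOf_pow_orderOf_div (orderOf_pos v).ne' hrn
    have huw : Commute u w := (show Commute u v from huv).pow_right _
    have hrp : r ≠ p := by
      rintro rfl
      exact B.cent w u (by rw [hwo]) hu huw
    have hr2 : r ≠ 2 := by
      rintro rfl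
      exact absurd hro (by decide)
    have hco : Nat.Coprime (orderOf u) (orderOf w) := by
      rw [hu, hwo]
      exact (Nat.coprime_primes Nat.prime_two hr).2 hr2.symm
    have hxo : orderOf (u * w) = 2 * r := by
      rw [huw.orderOf_mul_eq_mul_orderOf_of_coprime hco, hu, hwo]
    have hpx : ¬ p ∣ 2 * r := by
      intro h
      rcases B.hpp.dvd_mul.1 h with h | h
      · exact hp2 h
      · exact hrp ((Nat.prime_dvd_prime_iff_eq B.hpp hr).1 h).symm
    have hxR := B.mem_of_order hxo (by have := hr.one_lt; omega) hpx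
    have hfx : f (u * w) = 1 := by
      rcases B.zero_or hxR with h | h
      · have := (B.inv_iff hxR).1 h
        have := hr.one_lt
        omega
      · exact h
    have h1 := B.cong r hr (u * w)
    have h2 : (u * w) ^ r = u := by
      have hwr : w ^ r = 1 := by rw [← hwo]; exact pow_orderOf_eq_one w
      rw [huw.mul_pow, hwr, mul_one]
      obtain ⟨j, hj⟩ := hro
      have hu2 : u ^ 2 = 1 := by rw [← hu]; exact pow_orderOf_eq_one u
      rw [hj, pow_add, pow_mul, hu2, one_pow, one_mul, pow_one]
    rw [h2, hfu, hfx, zero_sub, dvd_neg] at h1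
    have h3 : r ∣ 1 := by exact_mod_cast h1
    exact hr.one_lt.ne' (Nat.dvd_one.1 h3)

theorem Big.card_inv (B : Big G p f) : Nat.card {u : G // orderOf u = 2} = p * (p - 2) := by
  classical
  have hp := B.hp
  have h1 := (B.C.seven B.hp B.hle B.hfa).2.2
  have hp2 : ¬ p ∣ 2 := fun h => by have := Nat.le_of_dvd (by norm_num) h; omega
  have h2 : Finset.univ.filter (fun u : G => orderOf u = 2) = (Rg G p).filter (fun g => f g = 0) := by
    ext g
    simp only [Finset.mem_filter, Finset.mem_univ, true_and]
    constructor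
    · intro h
      have := B.mem_of_order h (by norm_num) hp2
      exact ⟨this, (B.inv_iff this).2 h⟩
    · rintro ⟨h, h'⟩
      exact (B.inv_iff h).1 h'
  have h3 : ((Rg G p).card : ℤ) - ∑ g ∈ Rg G p, f g = ((Rg G p).filter (fun g => f g = 0)).card := by
    rw [Finset.card_eq_sum_ones, Nat.cast_sum, ← Finset.sum_sub_distrib, Finset.card_filter,
      Nat.cast_sum]
    refine Finset.sum_congr rfl fun g hg => ?_
    rcases B.zero_or hg with h | h
    · rw [h, if_pos rfl]
      simp
    · rw [h, if_neg one_ne_zero]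
      simp
  rw [Nat.card_eq_fintype_card, Fintype.card_subtype, h2]
  rw [h3] at h1
  have h4 : ((p * (p - 2) : ℕ) : ℤ) = p * (p - 2) := by
    rw [Nat.cast_mul, Nat.cast_sub (by omega)]
    rfl
  rw [← h4] at h1
  exact_mod_cast h1

theorem Big.card (B : Big G p f) : Nat.card G = (p - 2) * p * (p - 1) := by
  have hp := B.hp
  have h1 := (B.C.seven B.hp B.hle B.hfa).1
  have h4 : (((p - 2) * p * (p - 1) : ℕ) : ℤ) = (p - 1) * (p - 2) * p := by
    rw [Nat.cast_mul, Nat.cast_mul, Nat.cast_sub (by omega), Nat.cast_sub (by omega)]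
    push_cast
    ring
  rw [← h4] at h1
  exact_mod_cast h1

/-- counting fixed points of involutions -/
theorem sum_inv {X : Type*} [Finite X] [MulAction G X] [MulAction.IsPretransitive G X] (x0 : X) 
    [DecidableEq G] :
    ∑ g ∈ Finset.univ.filter (fun u : G => orderOf u = 2), Nat.card (MulAction.fixedBy X g) =
      Nat.card X * Nat.card {u : MulAction.stabilizer G x0 // orderOf u = 2} := by
  classical
  have := Fintype.ofFinite X
  have h1 : ∀ g : G, Nat.card (MulAction.fixedBy X g) = ∑ x : X, if g • x = x then 1 else 0 := by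
    intro g
    rw [Nat.card_eq_fintype_card, Fintype.card_subtype, Finset.card_filter]
    rfl
  have h2 : ∀ x : X, ∑ g ∈ Finset.univ.filter (fun u : G => orderOf u = 2),
      (if g • x = x then 1 else 0) = Nat.card {u : MulAction.stabilizer G x0 // orderOf u = 2} := by
    intro x
    obtain ⟨h, hh⟩ := MulAction.exists_smul_eq G x0 x
    rw [← Finset.card_filter, Finset.filter_filter, ← Fintype.card_subtype,
      ← Nat.card_eq_fintype_card]
    let e := MulAction.stabilizerEquivStabilizer (G := G) hh.symm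
    refine Nat.card_congr ?_
    refine ⟨fun u => ⟨e.symm ⟨u.1, MulAction.mem_stabilizer_iff.2 u.2.2⟩, ?_⟩,
      fun v => ⟨(e v.1 : MulAction.stabilizer G x), ?_, ?_⟩, ?_, ?_⟩
    · rw [MulEquiv.orderOf_eq, ← Subgroup.orderOf_coe]
      exact u.2.1
    · rw [Subgroup.orderOf_coe, MulEquiv.orderOf_eq]
      exact v.2
    · exact (e v.1).2
    · intro u
      apply Subtype.ext
      simp
    · intro v
      apply Subtype.ext
      exact e.symm_apply_apply v.1
  simp only [h1]
  rw [Finset.sum_comm, Finset.sum_congr rfl (fun x _ => h2 x), Finset.sum_const, Finset.card_univ,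
    smul_eq_mul, Nat.card_eq_fintype_card (α := X)]

/-- the contradiction for `p ≥ 7` -/
theorem Big.false (B : Big G p f) {X : Type*} [Finite X] [MulAction G X]
    [MulAction.IsPretransitive G X] (hX : Nat.card X = 2 * p)
    (hs : ∀ y : G, p ∣ orderOf y → Nat.card (MulAction.fixedBy X y) = 0)
    (h1 : ∑ g : G, (Nat.card (MulAction.fixedBy X g) : ℤ) = Nat.card G)
    (h2 : ∑ g : G, (Nat.card (MulAction.fixedBy X g) : ℤ) * f g = Nat.card G) : False := by
  classical
  have hp := B.hp
  have hp2 : ¬ p ∣ 2 := fun h => by have := Nat.le_of_dvd (by norm_num) h; omega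
  have hX0 : Nonempty X := by
    rw [← Finite.card_pos_iff, hX]
    omega
  obtain ⟨x0⟩ := hX0
  have hone : Nat.card (MulAction.fixedBy X (1 : G)) = 2 * p := by
    rw [← hX]
    exact Nat.card_congr (Equiv.subtypeUnivEquiv (fun x => one_smul G x))
  -- the key sum
  have h3 : ∑ g : G, (Nat.card (MulAction.fixedBy X g) : ℤ) * (1 - f g) = 0 := by
    have : ∀ g : G, (Nat.card (MulAction.fixedBy X g) : ℤ) * (1 - f g) =
        (Nat.card (MulAction.fixedBy X g) : ℤ) - (Nat.card (MulAction.fixedBy X g) : ℤ) * f g :=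
      fun g => by ring
    rw [Finset.sum_congr rfl (fun g _ => this g), Finset.sum_sub_distrib, h1, h2, sub_self]
  have h4 : ∀ g : G, (Nat.card (MulAction.fixedBy X g) : ℤ) * (1 - f g) =
      (if orderOf g = 2 then (Nat.card (MulAction.fixedBy X g) : ℤ) else 0) +
        (if g = 1 then (2 * p : ℤ) * (1 - (p - 1)) else 0) := by
    intro g
    by_cases hg1 : g = 1
    · rw [hg1, if_pos rfl, orderOf_one, if_neg (by norm_num), hone, B.C.one]
      push_cast
      ring
    · rw [if_neg hg1, add_zero]
      by_cases hgs : p ∣ orderOf g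
      · rw [hs g hgs]
        split_ifs <;> simp
      · have hgR : g ∈ Rg G p := mem_Rg.2 ⟨hgs, hg1⟩
        rcases B.zero_or hgR with h | h
        · rw [if_pos ((B.inv_iff hgR).1 h), h]
          ring
        · rw [if_neg (fun h' => by have := (B.inv_iff hgR).2 h'; omega), h]
          ring
  rw [Finset.sum_congr rfl (fun g _ => h4 g), Finset.sum_add_distrib,
    Finset.sum_ite_eq' Finset.univ (1 : G), if_pos (Finset.mem_univ _), ← Finset.sum_filter] at h3
  have h5 := sum_inv (G := G) (X := X) x0
  have h6 : ((2 * p : ℕ) : ℤ) * Nat.card {u : MulAction.stabilizer G x0 // orderOf u = 2} =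
      (2 * p : ℕ) * (p - 2 : ℕ) := by
    rw [← hX, ← Nat.cast_mul, ← h5, Nat.cast_sum, hX, Nat.cast_sub (by omega)]
    push_cast
    linarith
  have h7 : Nat.card {u : MulAction.stabilizer G x0 // orderOf u = 2} = p - 2 := by
    have h8 : (2 * p) * Nat.card {u : MulAction.stabilizer G x0 // orderOf u = 2} =
      (2 * p) * (p - 2) := by exact_mod_cast h6
    exact Nat.eq_of_mul_eq_mul_left (by omega) h8
  have h8 : Nat.card (MulAction.stabilizer G x0) * (2 * p) = (p - 2) * p * (p - 1) := by
    rw [← B.card, ← hX, ← MulAction.index_stabilizer_of_transitive G x0, Subgroup.card_mul_index]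
  refine contra B.elem (q := p - 1) (by omega) ?_ ?_ ?_ (MulAction.stabilizer G x0) ?_ ?_
  · rcases B.hpp.eq_two_or_odd' with h | h
    · omega
    · obtain ⟨j, hj⟩ := h
      exact ⟨j, by omega⟩
  · rw [B.card]
    congr 2
    omega
  · rw [B.card_inv, mul_comm]
    congr 1
    omega
  · have h9 : p * (Nat.card (MulAction.stabilizer G x0) * 2) = p * ((p - 1) * (p - 1 - 1)) := by
      have h10 : p - 1 - 1 = p - 2 := by omega
      rw [h10]
      calc p * (Nat.card (MulAction.stabilizer G x0) * 2) =
          Nat.card (MulAction.stabilizer G x0) * (2 * p) := by ring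
        _ = _ := by rw [h8]; ring
    exact Nat.eq_of_mul_eq_mul_left (by omega) h9
  · rw [h7]
    omega

end H59.PTwo
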