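import Cfsg.Agent.Lib.H8.SimpleCrit
import Cfsg.Agent.Lib.H21.SylowTools

set_option autoImplicit false

/-!
Primitive groups of degree `2p`: elementary facts.
-/

namespace H59.PTwoPerm

open MulAction Equiv

theorem zpow_fix {G : Type*} [Group G] {α : Type*} [MulAction G α] {z : G} {a : α}
    (h : z • a = a) (k : ℤ) : z ^ k • a = a := by
  have h1 : z ∈ stabilizer G a := h
  exact zpow_mem h1 k

variable {α : Type*} [Finite α] {p : ℕ} [hpf : Fact p.Prime]

/-- elements of order `p` of a primitive group of degree `2p` that is not 2-transitive have no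
fixed points -/
theorem no_fixed (hp : 3 < p) (hα : Nat.card α = 2 * p) (G : Subgroup (Perm α))
    (hprim : IsPreprimitive G α) (hnot2 : ¬ IsMultiplyPretransitive G α 2) {z : G}
    (hz : orderOf z = p) : Nat.card (fixedBy α z) = 0 := by
  classical
  have hPz : IsPGroup p (Subgroup.zpowers z) :=
    IsPGroup.of_card (n := 1) (by rw [Nat.card_zpowers, hz, pow_one])
  have hfix : (fixedPoints (Subgroup.zpowers z) α) = fixedBy α z := by
    ext a
    rw [mem_fixedPoints, mem_fixedBy]
    constructor
    · intro h
      exact h ⟨z, Subgroup.mem_zpowers z⟩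
    · rintro h ⟨g, k, rfl⟩
      exact zpow_fix h k
  have hmod := hPz.card_modEq_card_fixedPoints α
  rw [hfix, hα] at hmod
  have hdvd : p ∣ Nat.card (fixedBy α z) := by
    have h1 : Nat.card (fixedBy α z) ≡ 0 [MOD p] :=
      hmod.symm.trans ((Nat.modEq_zero_iff_dvd).2 (Dvd.intro_left 2 rfl))
    exact (Nat.modEq_zero_iff_dvd).1 h1
  obtain ⟨c, hc⟩ := hdvd
  have hle : Nat.card (fixedBy α z) ≤ 2 * p := by
    rw [← hα]
    exact Nat.card_le_card_of_injective Subtype.val Subtype.val_injective
  have hc2 : c ≤ 2 := by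
    by_contra hcon
    push Not at hcon
    have : p * 3 ≤ p * c := Nat.mul_le_mul_left _ hcon
    omega
  have hz1 : z ≠ 1 := by
    rintro rfl
    rw [orderOf_one] at hz
    omega
  interval_cases c
  · rw [hc, mul_zero]
  · exfalso
    rw [mul_one] at hc
    apply hnot2
    have hncard : (fixedBy α z).ncard = p := hc
    have hcompl : ((fixedBy α z)ᶜ).ncard = p := by
      have := Set.ncard_add_ncard_compl (fixedBy α z)
      rw [hncard, hα] at this
      omega
    have horb : ∀ a : α, a ∉ fixedBy α z → orbit (Subgroup.zpowers z) a = (fixedBy α z)ᶜ := by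
      intro a ha
      apply Set.eq_of_subset_of_ncard_le
      · rintro b ⟨⟨g, hg⟩, rfl⟩ hb
        apply ha
        rw [mem_fixedBy] at hb ⊢
        obtain ⟨k, rfl⟩ := hg
        have hb' : z • (z ^ k • a) = z ^ k • a := hb
        have h1 : z ^ k • (z • a) = z ^ k • a := by
          rw [← hb', smul_smul, smul_smul, ← zpow_one_add, ← zpow_add_one, add_comm]
        exact smul_left_cancel _ h1
      · rw [hcompl]
        have h1 : Nat.card (orbit (Subgroup.zpowers z) a) ∣ p := by
          have h2 := Nat.card_congr (orbitProdStabilizerEquivGroup (Subgroup.zpowers z) a)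
          rw [Nat.card_prod, Nat.card_zpowers, hz] at h2
          exact Dvd.intro _ h2
        rcases (Nat.dvd_prime hpf.out).1 h1 with h | h
        · exfalso
          apply ha
          rw [mem_fixedBy]
          have h3 : Subsingleton (orbit (Subgroup.zpowers z) a) :=
            (Nat.card_eq_one_iff_unique.1 h).1
          exact congrArg Subtype.val (@Subsingleton.elim _ h3
            ⟨z • a, ⟨⟨z, Subgroup.mem_zpowers z⟩, rfl⟩⟩ ⟨a, mem_orbit_self a⟩)
        · exact h.ge
      · exact Set.toFinite _
    refine hprim.is_two_pretransitive (s := fixedBy α z) (n := p - 1) (by omega) (by omega) ?_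
    refine ⟨fun x y => ?_⟩
    have hx : (x : α) ∉ fixedBy α z := (SubMulAction.mem_ofFixingSubgroup_iff G).1 x.2
    have hy : (y : α) ∉ fixedBy α z := (SubMulAction.mem_ofFixingSubgroup_iff G).1 y.2
    have hy2 : (y : α) ∈ orbit (Subgroup.zpowers z) (x : α) := by
      rw [horb _ hx]
      exact hy
    obtain ⟨⟨g, hg⟩, hgy⟩ := hy2
    refine ⟨⟨g, ?_⟩, ?_⟩
    · rw [mem_fixingSubgroup_iff]
      obtain ⟨k, rfl⟩ := hg
      intro a ha
      exact zpow_fix ha k
    · apply Subtype.ext
      exact hgy
  · exfalso
    apply hz1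
    have h1 : fixedBy α z = Set.univ := by
      apply Set.eq_of_subset_of_ncard_le (Set.subset_univ _)
      rw [Set.ncard_univ, hα]
      have : (fixedBy α z).ncard = Nat.card (fixedBy α z) := rfl
      omega
    apply Subtype.ext
    apply Perm.ext
    intro a
    have : a ∈ fixedBy α z := by rw [h1]; trivial
    exact this

end H59.PTwoPerm
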