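import Cfsg.Agent.Lib.H83.FSMult
import Cfsg.Agent.Lib.H4.TwoTrans

set_option autoImplicit false

/-!
A real irreducible constituent of odd multiplicity of a permutation character has
Frobenius–Schur indicator one.
-/

namespace H59.PermNu

open Cfsg Representation H4.TwoTrans

universe u v

variable {G : Type u} [Group G] {X : Type v} [MulAction G X]

/-- the permutation representation on functions -/
def funRep (G : Type u) [Group G] (X : Type v) [MulAction G X] : Representation ℂ G (X → ℂ) where
  toFun g := LinearMap.funLeft ℂ ℂ (fun x => g⁻¹ • x)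
  map_one' := by
    ext
    simp [LinearMap.funLeft]
  map_mul' g h := by
    apply LinearMap.ext
    intro φ
    ext x
    simp [LinearMap.funLeft, mul_smul]

theorem funRep_apply (g : G) (v : X → ℂ) (x : X) : funRep G X g v x = v (g⁻¹ • x) := rfl

theorem funRep_character [Fintype X] : (funRep G X).character = permChar G X := by
  classical
  funext g
  rw [Representation.character, LinearMap.trace_eq_matrix_trace ℂ (Pi.basisFun ℂ X), Matrix.trace]
  have h : ∀ x : X, Matrix.diag (LinearMap.toMatrix (Pi.basisFun ℂ X) (Pi.basisFun ℂ X)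
      (funRep G X g)) x = if g • x = x then 1 else 0 := by
    intro x
    rw [Matrix.diag_apply, LinearMap.toMatrix_apply, Pi.basisFun_apply, Pi.basisFun_repr,
      funRep_apply, Pi.single_apply]
    congr 1
    rw [inv_smul_eq_iff]
    exact propext eq_comm
  rw [Finset.sum_congr rfl (fun x _ => h x), Finset.sum_boole, permChar, Nat.card_eq_fintype_card,
    Fintype.card_subtype]
  rfl

theorem nu_eq_one [Finite G] [Finite X] {χ : G → ℂ} (hχ : IsIrrCharacter G χ)
    (hr : ∀ g, (χ g).im = 0) [Fintype G] (e : ℕ) (he : Odd e)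
    (hmul : classInner (permChar G X) χ = e) : H83.FSMult.nu χ = 1 := by
  classical
  have := Fintype.ofFinite X
  have hν := H83.FSMult.nu_of_real hχ hr
  obtain ⟨m, σ, hσ, rfl⟩ := hχ
  obtain ⟨S, hS1, hS2, hS3, hS4⟩ := H83.FSMult.exists_form σ hσ hr
  let B : (X → ℂ) →ₗ[ℂ] Module.Dual ℂ (X → ℂ) :=
    LinearMap.mk₂ ℂ (fun v w => ∑ x, v x * w x)
      (by intro v v' w; simp [add_mul, Finset.sum_add_distrib])
      (by intro c v w; simp [Finset.mul_sum, mul_assoc])
      (by intro v w w'; simp [mul_add, Finset.sum_add_distrib])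
      (by intro c v w; simp [Finset.mul_sum, mul_left_comm])
  have hB : ∀ v w, B v w = ∑ x, v x * w x := fun v w => rfl
  have h1 := H4.CharOrth.classInner_char_char (funRep G X) σ
  rw [funRep_character, hmul] at h1
  have h3 : e = Module.finrank ℂ (IntertwiningMap σ (funRep G X)) := by exact_mod_cast h1
  refine (H83.FSMult.sign_eq (funRep G X) σ hσ B ?_ ?_ 1 ?_ S hS1 hS2 _ hS3 (Or.inl rfl) hν
    (h3 ▸ he)).symm
  · intro g v w
    rw [hB, hB]
    exact Fintype.sum_equiv (MulAction.toPerm g⁻¹) _ _ (fun x => rfl)
  · intro w hw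
    funext x
    have h4 := hw (Pi.single x 1)
    rw [hB, Finset.sum_eq_single x] at h4
    · simpa using h4
    · intro y _ hy
      rw [Pi.single_eq_of_ne hy, zero_mul]
    · intro h
      exact absurd (Finset.mem_univ _) h
  · intro v w
    rw [hB, hB, one_mul]
    exact Finset.sum_congr rfl fun x _ => mul_comm _ _

end H59.PermNu
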